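import Cfsg.Agent.Lib.QJ.Small

/-! # QJ: the facts about `A₆` -/

set_option autoImplicit false
set_option linter.unusedSectionVars false

namespace Cfsg.Lib.QJ

open Subgroup Cfsg.Lib.BG Cfsg.Lib.Comp Cfsg.Lib.QS
open scoped Cfsg.Lib.Transfer commutatorElement

variable {Y : Type*} [Group Y]

/-- `U ≅ D₈` is a Sylow 2-subgroup of `A₆`, `c` its central involution.  `C_Aut(U) = {1, c, σ, σ c}` with `σ = (56)`. -/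
structure A6F (U : Subgroup Y) (c : Y) : Prop where
  syl : Syl 2 U ⊤
  d8 : Nonempty (U ≃* DihedralGroup 4)
  c1 : c ≠ 1
  zc : ∀ x, x ∈ Zc U ↔ x = 1 ∨ x = c
  cD : c ∈ ⁅U, U⁆
  sq : ∀ u ∈ U, u * u = 1 ∨ u * u = c
  u3 : ∀ x ∈ U, ∀ y ∈ U, ∀ w ∈ U, x * x = 1 → y * y = 1 → w * w = 1 → x * y = y * x ∨ y * w = w * y ∨ x * w = w * x
  one : ∀ t : Y, orderOf t = 2 → IsConj t c
  nc : ¬ QT.Cy 3 Y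
  o4 : Nat.card (Out Y) = 4
  oe : ∀ α : MulAut Y, α * α ∈ Inn Y
  a2 : ∀ α β : MulAut Y, α * α = 1 → β * β = 1 → α * β = β * α → α ∈ Inn Y ∨ β ∈ Inn Y ∨ α * β ∈ Inn Y
  cu : ∀ α : MulAut Y, (∀ u ∈ U, α u = u) → α * α = 1 ∧ (α ∈ Inn Y → α = 1 ∨ α = MulAut.conj c)
  cu2 : ∀ α β : MulAut Y, (∀ u ∈ U, α u = u) → (∀ u ∈ U, β u = u) → α ∈ Inn Y ∨ β ∈ Inn Y ∨ α * β ∈ Inn Y
  nu : ∀ α τ : MulAut Y, (∀ u ∈ U, α u ∈ U) → (∀ u ∈ U, τ u = u) → τ ∉ Inn Y → α * τ = τ * α → ∃ v ∈ U, ∀ u ∈ U, α u = v * u * v⁻¹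
  nu2 : ∀ α : MulAut Y, (∀ u ∈ U, α u ∈ U) → (∃ v ∈ U, ∀ u ∈ U, α u = v * u * v⁻¹) ∨ ∃ v ∈ U, v⁻¹ * α v * (v⁻¹ * α v) = c
  oi : ∀ τ : MulAut Y, τ * τ = 1 → τ ∉ Inn Y → (∃ l, ∀ u ∈ U, τ (l⁻¹ * u * l) = l⁻¹ * u * l) ∨
    ∀ x, MulAut.conj x * τ * (MulAut.conj x * τ) = 1 → ∃ l, x = l * (τ l)⁻¹
  ex : ∀ τ : MulAut Y, (∀ u ∈ U, τ u = u) → τ ∉ Inn Y → ∃ v ∈ U ⊓ Pg 3 (fixedSubgroup τ), v * v = 1 ∧ v ≠ 1 ∧ v ≠ c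
  xf : ∀ τ : MulAut Y, (∀ u ∈ U, τ u = u) → τ ∉ Inn Y → ∀ v ∈ U ⊓ Pg 3 (fixedSubgroup τ),
    ∀ w ∈ U ⊓ Pg 3 (fixedSubgroup (τ * MulAut.conj c)), v ≠ 1 → v ≠ c → w ≠ 1 → w ≠ c → v * w ≠ w * v

/-- the facts hold for some model of `Y` -/
def A6E (Y : Type*) [Group Y] : Prop := ∃ (X : Type) (_ : Group X) (U : Subgroup X) (c : X), Nonempty (X ≃* Y) ∧ A6F U c

end Cfsg.Lib.QJ
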