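import Cfsg.Agent.Lib.QJ.A6D
import Cfsg.Agent.Lib.Perm.Sym3
import Cfsg.Agent.Lib.Inv.SylowTwo

/-! # QJ: elements of `A₆` and three centralizers in `S₆` -/

set_option autoImplicit false
set_option maxRecDepth 100000

namespace Cfsg.Lib.QJ.A6m

open Subgroup Cfsg.Lib.BG Cfsg.Lib.QS Equiv Equiv.Perm

attribute [local instance high] List.decidableBAll List.decidableBEx

abbrev X := alternatingGroup (Fin 6)

abbrev cn : Perm (Fin 6) →* MulAut X := MulAut.conjNormal

def c : X := ⟨swap 0 1 * swap 2 3, mem_alternatingGroup.2 (by decide)⟩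
def v : X := ⟨swap 0 2 * swap 1 3, mem_alternatingGroup.2 (by decide)⟩
def w : X := ⟨swap 0 1 * swap 4 5, mem_alternatingGroup.2 (by decide)⟩
def x : X := ⟨swap 1 2 * swap 2 3, mem_alternatingGroup.2 (by decide)⟩
def d : X := ⟨swap 0 2 * swap 2 4 * (swap 1 3 * swap 3 5), mem_alternatingGroup.2 (by decide)⟩
def σ : Perm (Fin 6) := swap 4 5
def LU : List X := [1, c, v, v * c, w, w * c, v * w, w * v]
def L1 : List X := [1, c, v, v * c].flatMap fun a => [a, a * x, a * x * x]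
def L2 : List X := [1, c, w, w * c].flatMap fun a => [a, a * d, a * d * d]

theorem E1 : ∀ s : Perm (Fin 6), s * c.1 = c.1 * s → ∃ u ∈ LU, s = u.1 ∨ s = u.1 * σ := by decide +kernel
theorem E2 : ∀ s : Perm (Fin 6), σ * s = s * σ → s ^ 3 = 1 → ∃ u ∈ L1, s = u.1 := by decide +kernel
theorem E3 : ∀ s : Perm (Fin 6), σ * c.1 * s = s * (σ * c.1) → s ^ 3 = 1 → ∃ u ∈ L2, s = u.1 := by decide +kernel

end Cfsg.Lib.QJ.A6m
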