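import Cfsg.Agent.Lib.QJ.A6K

/-! # QJ: automorphisms of `A₆` without a model of the exceptional ones -/

set_option autoImplicit false
set_option maxRecDepth 100000

namespace Cfsg.Lib.QJ.A6m

open Subgroup Cfsg.Lib.BG Cfsg.Lib.QS Equiv Equiv.Perm

attribute [local instance high] List.decidableBAll List.decidableBEx

variable {α β τ : MulAut X} {s t : Perm (Fin 6)} {a b u y : X}

theorem cn_inj : Function.Injective cn := Alt.conjNormal_injective (by simp)

theorem cn_eq : cn s a = b ↔ s * a.1 = b.1 * s := by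
  rw [Subtype.ext_iff, MulAut.conjNormal_apply, mul_inv_eq_iff_eq_mul]

theorem inn : cn s ∈ Inn X ↔ sign s = 1 := ⟨fun ⟨a, e⟩ => cn_inj (show cn a.1 = _ from e) ▸ a.2, fun h => ⟨⟨s, h⟩, rfl⟩⟩

theorem odd (h : cn s ∉ Inn X) : sign s = -1 := (Int.units_eq_one_or _).resolve_left (mt inn.2 h)

theorem cj (a : X) : MulAut.conj a ∈ cn.range := ⟨a, rfl⟩

theorem par (h : α ∈ cn.range) (k : β ∈ cn.range) : α ∈ Inn X ∨ β ∈ Inn X ∨ α * β ∈ Inn X := by
  obtain ⟨s, rfl⟩ := h
  obtain ⟨t, rfl⟩ := k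
  by_contra! n
  exact n.2.2 (by rw [← map_mul, inn, map_mul, odd n.1, odd n.2.1]; rfl)

theorem memU : u ∈ 𝐂[c] ↔ u ∈ LU := by
  refine ⟨fun h => ?_, fun h => mem_cent1.2 ((by decide +kernel : ∀ u ∈ LU, u * c = c * u) u h)⟩
  obtain ⟨a, ha, e | e⟩ := E1 u (congrArg Subtype.val (mem_cent1.1 h))
  · exact Subtype.ext e ▸ ha
  · have := u.2
    rw [mem_alternatingGroup, e, map_mul, mem_alternatingGroup.1 a.2] at this
    exact absurd this (by decide)

theorem vU : v ∈ 𝐂[c] := mem_cent1.2 (by decide)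

theorem wU : w ∈ 𝐂[c] := mem_cent1.2 (by decide)

theorem o2 : orderOf c = 2 := Inv.ord_two_iff.2 (by decide)

theorem x3 : x.1.IsThreeCycle := card_support_eq_three_iff.1 (by decide)

theorem o3 (h : a ^ 3 = 1) (n : a ≠ 1) : orderOf a = 3 := have := Fact.mk Nat.prime_three; orderOf_eq_prime h n

theorem K1 (h : (α x).1.IsThreeCycle) : α ∈ cn.range :=
  Alt.exists_conj_of_three (by simp) α fun _ hy => (isConj_iff_cycleType_eq.1 (Perm.isConj_coe
    (α.toMonoidHom.map_isConj (alternatingGroup.isThreeCycle_isConj (by simp) hy x3)))).trans h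

theorem dcj (o : orderOf y = 3) (h : ¬ y.1.IsThreeCycle) : IsConj d y :=
  Perm.isConj_alt_iff.2 (Perm.exists_alt_conj_of_not_le (Perm.isConj_of_not_three (by simp)
    ((orderOf_coe d).trans (o3 (by decide) (by decide))) ((orderOf_coe y).trans o)
    (fun e => absurd (card_support_eq_three_iff.2 e) (by decide)) h) fun e =>
      absurd (mem_alternatingGroup.1 (e (x := σ * c.1) (mem_cent1.2 (by decide)))) (by decide))

theorem ox (α : MulAut X) : orderOf (α x) = 3 := (α.orderOf_eq x).trans (o3 (by decide) (by decide))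

theorem K1' (n : α ∉ cn.range) (o : orderOf y = 3) (h : ¬ y.1.IsThreeCycle) : (α y).1.IsThreeCycle := by
  have := α.toMonoidHom.map_isConj ((dcj o h).symm.trans (dcj (ox α⁻¹) fun e => n (inv_mem_iff.1 (K1 e))))
  exact (isConj_iff_cycleType_eq.1 (Perm.isConj_coe (by simpa using this))).trans x3

theorem mulS (h : α ∉ cn.range) (k : β ∉ cn.range) : α * β ∈ cn.range := K1 (K1' (α := α) h (ox β) fun e => k (K1 e))

theorem inv3 (h : s * s = 1) (n : s ≠ 1) : ∃ k : X, ∃ t, (t = σ ∨ t = c.1 ∨ t = σ * c.1) ∧ k.1 * t * k.1⁻¹ = s := by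
  have ho := Inv.ord_two_iff.2 ⟨n, h⟩
  obtain ⟨m, hm⟩ := cycleType_prime_order (ho ▸ Nat.prime_two)
  have h1 := sum_cycleType_le s
  rw [hm, ho] at h1
  rw [ho] at hm
  simp only [Multiset.sum_replicate, smul_eq_mul, Fintype.card_fin] at h1
  have key : ∀ t, t.cycleType = s.cycleType → σ * t = t * σ → ∃ k : X, k.1 * t * k.1⁻¹ = s := fun t e e' =>
    let ⟨k, a, b⟩ := Perm.exists_alt_conj_of_not_le (isConj_iff_cycleType_eq.2 e) fun i =>
      absurd (mem_alternatingGroup.1 (i (mem_cent1.2 e'))) (by decide)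
    ⟨⟨k, a⟩, b⟩
  have : m ≤ 2 := by omega
  interval_cases m
  · exact (key σ (hm ▸ by decide) rfl).imp fun _ e => ⟨_, .inl rfl, e⟩
  · exact (key c.1 (hm ▸ by decide) (by decide)).imp fun _ e => ⟨_, .inr (.inl rfl), e⟩
  · exact (key (σ * c.1) (hm ▸ by decide) (by decide)).imp fun _ e => ⟨_, .inr (.inr rfl), e⟩

theorem one (h : orderOf a = 2) : IsConj a c := by
  obtain ⟨k, t, i, e⟩ := inv3 (congrArg Subtype.val (Inv.ord_two_iff.1 h).2) fun e => (Inv.ord_two_iff.1 h).1 (Subtype.ext e)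
  have := congrArg sign e
  rw [map_mul, map_mul, map_inv, mem_alternatingGroup.1 k.2, mem_alternatingGroup.1 a.2] at this
  rcases i with rfl | rfl | rfl
  · exact absurd this (by decide)
  · exact (isConj_iff.2 ⟨k, Subtype.ext e⟩).symm
  · exact absurd this (by decide)

theorem inv2 (h : s * s = 1) (n : sign s = -1) : ∃ k : X, ∃ t, (t = σ ∨ t = σ * c.1) ∧ k.1 * t * k.1⁻¹ = s := by
  obtain ⟨k, t, i, rfl⟩ := inv3 h (by rintro rfl; exact absurd n (by decide))
  refine ⟨k, t, i.imp_right fun i => i.resolve_left ?_, rfl⟩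
  rintro rfl
  rw [map_mul, map_mul, map_inv, mem_alternatingGroup.1 k.2] at n
  exact absurd n (by decide)

theorem m1 (h : cn σ a = a) (e : a ^ 3 = 1) : a ∈ L1 :=
  let ⟨_, i, j⟩ := E2 a (cn_eq.1 h) (congrArg Subtype.val e)
  Subtype.ext j ▸ i

theorem m2 (h : cn (σ * c.1) a = a) (e : a ^ 3 = 1) : a ∈ L2 :=
  let ⟨_, i, j⟩ := E3 a (cn_eq.1 h) (congrArg Subtype.val e)
  Subtype.ext j ▸ i

theorem K2t (i : t = σ ∨ t = σ * c.1) (h : α * cn t = cn t * α) : α ∈ cn.range := by_contra fun n => by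
  have f : ∀ y, cn t y = y → cn t (α y) = α y := fun y e => (DFunLike.congr_fun h y).symm.trans (congrArg α e)
  rcases i with rfl | rfl
  · exact n (K1 (card_support_eq_three_iff.1 ((by decide +kernel : ∀ y ∈ L1, y ^ 3 = 1 → y ≠ 1 → y.1.support.card = 3) _
      (m1 (f x (cn_eq.2 (by decide))) (ox α ▸ pow_orderOf_eq_one _)) (ox α ▸ pow_orderOf_eq_one _) (α.map_ne_one_iff.2 (by decide)))))
  · exact (by decide +kernel : ∀ y ∈ L2, y.1.support.card ≠ 3) _
      (m2 (f d (cn_eq.2 (by decide))) (by rw [← map_pow, show d ^ 3 = 1 by decide, map_one]))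
      (card_support_eq_three_iff.2 (K1' n (o3 (by decide) (by decide)) fun e => absurd (card_support_eq_three_iff.2 e) (by decide)))

/-- an automorphism that commutes with an odd involution of `S₆` lies in `S₆` -/
theorem K2 (h2 : s * s = 1) (n : sign s = -1) (h : α * cn s = cn s * α) : α ∈ cn.range := by
  obtain ⟨k, t, i, rfl⟩ := inv2 h2 n
  have := K2t (α := (cn k)⁻¹ * α * cn k) i (by
    rw [map_mul, map_mul, map_inv] at h
    calc _ = (cn k)⁻¹ * (α * (cn k * cn t * (cn k)⁻¹)) * cn k := by group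
      _ = _ := by rw [h]; group)
  exact (mul_mem_cancel_left (inv_mem (cj k))).1 ((mul_mem_cancel_right (cj k)).1 this)

theorem mapU (h : α c = c) (hu : u ∈ 𝐂[c]) : α u ∈ 𝐂[c] := mem_cent1.2 (by rw [← h, ← map_mul, ← map_mul, mem_cent1.1 hu])

theorem fixc (h : ∀ u ∈ 𝐂[c], α u ∈ 𝐂[c]) : α c = c := by
  have := (by decide +kernel : ∀ u ∈ LU, u * u = 1 ∨ u * u = c) _ (memU.1 (h _ (mul_mem vU wU)))
  rw [← map_mul, show v * w * (v * w) = c by decide] at this
  exact this.resolve_left (α.map_ne_one_iff.2 (by decide))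

/-- the exceptional automorphisms interchange the two four-groups of `U` -/
theorem K3 (h : α c = c) (n : α ∉ cn.range) : α v = w ∨ α v = w * c := by
  refine ((by decide +kernel : ∀ u ∈ LU, u * u = 1 → u ≠ 1 → u ≠ c → (u = v ∨ u = v * c) ∨ u = w ∨ u = w * c) _
    (memU.1 (mapU h vU)) (by rw [← map_mul, show v * v = 1 by decide, map_one]) (α.map_ne_one_iff.2 (by decide))
    fun e => absurd (α.injective (e.trans h.symm)) (by decide)).resolve_left fun e => n (K1 (card_support_eq_three_iff.1 ?_))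
  have e1 : α x * c * (α x)⁻¹ = α v := by rw [← h, ← map_inv, ← map_mul, ← map_mul, show x * c * x⁻¹ = v by decide]
  have e3 : α x ^ 3 = 1 := ox α ▸ pow_orderOf_eq_one _
  have key : ∀ k : X, k * c * k⁻¹ = α v → ∃ u ∈ LU, α x = k * u := fun k e =>
    ⟨k⁻¹ * α x, memU.1 (mem_cent1.2 (by
      rw [mul_assoc, mul_inv_eq_iff_eq_mul.1 (e1.trans e.symm)]; group)), (mul_inv_cancel_left ..).symm⟩
  rcases e with e | e
  · obtain ⟨u, hu, i⟩ := key x (by rw [e]; decide)
    rw [i] at e3 ⊢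
    exact (by decide +kernel : ∀ u ∈ LU, (x * u) ^ 3 = 1 → (x * u).1.support.card = 3) u hu e3
  · obtain ⟨u, hu, i⟩ := key (x * x) (by rw [e]; decide)
    rw [i] at e3 ⊢
    exact (by decide +kernel : ∀ u ∈ LU, (x * x * u) ^ 3 = 1 → (x * x * u).1.support.card = 3) u hu e3

theorem fixU (h : ∀ u ∈ 𝐂[c], α u = u) : ∃ s, cn s = α ∧ ((s = 1 ∨ s = c.1) ∨ s = σ ∨ s = σ * c.1) := by
  have hc := h c (self_mem_cent1 c)
  obtain ⟨s, rfl⟩ : α ∈ cn.range := by_contra fun n => absurd (h v vU ▸ K3 hc n) (by decide)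
  obtain ⟨u, hu, e⟩ := E1 s (cn_eq.1 hc)
  exact ⟨s, rfl, (by decide +kernel : ∀ u ∈ LU, ∀ s ∈ [u.1, u.1 * σ], s * v.1 = v.1 * s → s * w.1 = w.1 * s →
    (s = 1 ∨ s = c.1) ∨ s = σ ∨ s = σ * c.1) u hu s (List.mem_pair.2 e) (cn_eq.1 (h v vU)) (cn_eq.1 (h w wU))⟩

end Cfsg.Lib.QJ.A6m
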