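import Cfsg.Agent.Lib.QJ.A6L
import Cfsg.Agent.Lib.T2.Dih8
import Cfsg.Agent.S2602
import Cfsg.Agent.S0254

/-! # QJ: `A6F` for `A₆`

`U = C(c)`, `c = (01)(23)`.  An automorphism outside `S₆` interchanges the two classes of elements of order 3 (`A6m.K1`, `K1'`), so it
commutes with no odd involution of `S₆` (`K2`) and interchanges the four-groups of `U` if it fixes `c` (`K3`). -/

set_option autoImplicit false
set_option linter.unusedSectionVars false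
set_option maxRecDepth 100000
set_option synthInstance.maxSize 1000
set_option synthInstance.maxHeartbeats 200000

namespace Cfsg.Lib.QJ

open Subgroup Cfsg.Lib.BG Cfsg.Lib.Comp Cfsg.Lib.QS
open scoped Cfsg.Lib.Transfer commutatorElement

namespace A6m

open Equiv Equiv.Perm

attribute [local instance high] List.decidableBAll List.decidableBEx

variable {α β τ : MulAut X} {s t : Perm (Fin 6)} {a b u y : X}

theorem cX : Nat.card X = 360 := by rw [nat_card_alternatingGroup]; simp [Nat.factorial]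

theorem o4 : Nat.card (Out X) = 4 := by
  have : Fact (Nat.Prime 3) := ⟨Nat.prime_three⟩
  have := Fintype.ofFinite (GaloisField 3 2)
  have c : Fintype.card (GaloisField 3 2) = 3 ^ 2 := Fintype.card_eq_nat_card.trans (GaloisField.card 3 2 two_ne_zero)
  obtain ⟨e⟩ := Agent.S0254.result c
  obtain ⟨φ, a, -, b⟩ := Agent.S2602.result (p := 3) (f := 2) (by decide) c (by decide)
  rw [← out_congr e, ← φ.ker.card_mul_index, index_ker, b, MonoidHom.range_eq_top.2 a, card_top, Nat.card_congr Multiplicative.toAdd,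
    Nat.card_zmod]
  rfl

theorem cj1 (h : MulAut.conj a = 1) : a = 1 := Subtype.ext (cn_inj (h.trans (map_one cn).symm))

theorem sU (hu : u ∈ 𝐂[c]) : cn σ u = u := cn_eq.2 ((by decide +kernel : ∀ u ∈ LU, σ * u.1 = u.1 * σ) u (memU.1 hu))

theorem scU (i : t = σ ∨ t = σ * c.1) (hu : u ∈ 𝐂[c]) : cn t u = u := by
  rcases i with rfl | rfl
  · exact sU hu
  · rw [map_mul, MulAut.mul_apply, cn_eq.2 (congrArg Subtype.val (mem_cent1.1 hu).symm), sU hu]

theorem nU (h : α ∈ cn.range) (e : α c = c) : ∃ v ∈ 𝐂[c], ∀ u ∈ 𝐂[c], α u = v * u * v⁻¹ := by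
  obtain ⟨s, rfl⟩ := h
  obtain ⟨a, ha, rfl | rfl⟩ := E1 s (cn_eq.1 e)
  · exact ⟨a, memU.2 ha, fun _ _ => rfl⟩
  · exact ⟨a, memU.2 ha, fun u hu => by rw [map_mul, MulAut.mul_apply, sU hu]; rfl⟩

theorem out2 (h : ∀ u ∈ 𝐂[c], τ u = u) (n : τ ∉ Inn X) : τ = cn σ ∨ τ = cn (σ * c.1) := by
  obtain ⟨s, rfl, (rfl | rfl) | rfl | rfl⟩ := fixU h
  exacts [(n (inn.2 rfl)).elim, (n (inn.2 c.2)).elim, .inl rfl, .inr rfl]

theorem K2' (h2 : τ * τ = 1) (m : τ ∈ cn.range) (n : τ ∉ Inn X) (h : α * τ = τ * α) : α ∈ cn.range := by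
  obtain ⟨s, rfl⟩ := m
  exact K2 (cn_inj (by rw [map_mul, h2, map_one])) (odd n) h

theorem oe' (h : α c = c) : α * α ∈ Inn X := by
  by_cases n : α ∈ cn.range
  · exact (par n n).elim (fun e => mul_mem e e) fun e => e.elim (fun e => mul_mem e e) id
  obtain ⟨s, hs⟩ := Perm.sq_mem_range_conjNormal (by simp) α
  refine hs ▸ by_contra fun i => n ?_
  have cm : α * cn s = cn s * α := by rw [hs, mul_assoc]
  by_cases s2 : s * s = 1
  · exact K2 s2 (odd i) cm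
  obtain ⟨u, hu, rfl | rfl⟩ := E1 s (cn_eq.1 (by rw [hs, MulAut.mul_apply, h, h]))
  · exact (i (inn.2 u.2)).elim
  have f : α (v * α v) = v * α v := by
    rw [map_mul, ← MulAut.mul_apply, ← hs]
    exact (by decide +kernel : ∀ u ∈ LU, u.1 * σ * (u.1 * σ) ≠ 1 → ∀ b ∈ [w, w * c], b * cn (u.1 * σ) v = v * b) u hu s2 _
      (List.mem_pair.2 (K3 h n))
  have g : α u = u := by
    rcases (by decide +kernel : ∀ u ∈ LU, u.1 * σ * (u.1 * σ) ≠ 1 → ∀ b ∈ [w, w * c], u = v * b ∨ u = (v * b)⁻¹) u hu s2 _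
      (List.mem_pair.2 (K3 h n)) with e | e
    · rw [e, f]
    · rw [e, map_inv, f]
  refine K2 (s := σ) (by decide) (by decide) (mul_left_cancel (a := cn u) ?_)
  have : cn u * α = α * cn u := MulEquiv.ext fun y => by
    change u * α y * u⁻¹ = α (u * y * u⁻¹)
    rw [map_mul, map_mul, map_inv, g]
  rw [← mul_assoc, this, mul_assoc, ← map_mul, cm, map_mul, mul_assoc]

theorem oe (α : MulAut X) : α * α ∈ Inn X := by
  obtain ⟨l, hl⟩ := isConj_iff.1 (one ((α.orderOf_eq c).trans o2))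
  have := (QuotientGroup.eq_one_iff _).2 (oe' (α := MulAut.conj l * α) hl)
  rwa [QuotientGroup.mk_mul, QuotientGroup.mk_mul, (QuotientGroup.eq_one_iff (N := Inn X) _).2 ⟨l, rfl⟩, one_mul, ← QuotientGroup.mk_mul,
    QuotientGroup.eq_one_iff] at this

theorem a2 (h : α * α = 1) (k : β * β = 1) (e : α * β = β * α) : α ∈ Inn X ∨ β ∈ Inn X ∨ α * β ∈ Inn X := by
  by_contra n
  have m := not_or.1 n
  by_cases a : α ∈ cn.range
  · exact n (par a (K2' h a m.1 e.symm))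
  by_cases b : β ∈ cn.range
  · exact a (K2' k b (not_or.1 m.2).1 e)
  · exact a (K2' (by rw [mul_assoc, ← mul_assoc β, ← e, mul_assoc, k, mul_one, h]) (mulS a b) (not_or.1 m.2).2 (by rw [mul_assoc, e]))

theorem fx (h : τ * τ = 1) : ∃ l, τ (l * c * l⁻¹) = l * c * l⁻¹ := by
  classical
  have := card_fixedPoints_modEq (f := (τ : X → X)) (p := 2) (n := 1) (funext fun y => DFunLike.congr_fun h y)
  rw [← Nat.card_eq_fintype_card, ← Nat.card_eq_fintype_card, cX] at this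
  obtain ⟨t, ht, o⟩ := Inv.exists_involution_mem_of_even (H := fixedSubgroup τ)
    (even_iff_two_dvd.2 ((Nat.ModEq.dvd_iff this dvd_rfl).1 (by decide)))
  obtain ⟨l, rfl⟩ := isConj_iff.1 (one o).symm
  exact ⟨l, ht⟩

theorem oi0 (h : τ * τ = 1) (n : τ ∉ cn.range) (e : τ c = c) (hu : u ∈ 𝐂[c]) (i : u * τ u = 1) : ∃ l, u = l * (τ l)⁻¹ := by
  have k := List.mem_pair.2 (K3 e n)
  have f : τ (τ v) = v := DFunLike.congr_fun h v
  generalize hb : τ v = b at k f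
  rcases (by decide +kernel : ∀ b ∈ [w, w * c], ∀ u ∈ LU, u = 1 ∨ u = v * b⁻¹ ∨ u = b * v⁻¹ ∨ u = v * b * (b * v)⁻¹ ∨
    (u = v ∨ u = v * c ∨ u = b ∨ u = b * c) ∧ v * b ≠ 1 ∧ v * c * (b * c) ≠ 1 ∧ b * v ≠ 1 ∧ b * c * (v * c) ≠ 1) b k u (memU.1 hu) with
    r | r | r | r | ⟨r, q⟩
  · exact ⟨1, by simpa using r⟩
  · exact ⟨v, hb ▸ r⟩
  · exact ⟨b, f ▸ r⟩
  · exact ⟨v * b, by rwa [map_mul, hb, f]⟩
  · rcases r with rfl | rfl | rfl | rfl <;> simp only [map_mul, hb, f, e] at i <;> tauto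

theorem oi (h : τ * τ = 1) (n : τ ∉ cn.range) (i : MulAut.conj y * τ * (MulAut.conj y * τ) = 1) : ∃ l, y = l * (τ l)⁻¹ := by
  obtain ⟨l, hl⟩ := fx h
  obtain ⟨m, hm⟩ := fx i
  have tt : ∀ z, τ (τ z) = z := DFunLike.congr_fun h
  have i' : y * τ y = 1 := cj1 (MulEquiv.ext fun z => by simpa [tt, mul_assoc] using DFunLike.congr_fun i z)
  change y * τ _ * y⁻¹ = _ at hm
  simp only [map_mul, map_inv] at hl hm
  have e : ∀ z, ((MulAut.conj l)⁻¹ * τ * MulAut.conj l) z = l⁻¹ * (τ l * τ z * (τ l)⁻¹) * l := fun z => by simp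
  obtain ⟨k, hk⟩ := oi0 (τ := (MulAut.conj l)⁻¹ * τ * MulAut.conj l) (u := m⁻¹ * y * τ m * (τ l)⁻¹ * l)
    (by rw [mul_assoc, ← mul_assoc (MulAut.conj l), ← mul_assoc (MulAut.conj l), mul_inv_cancel, one_mul, mul_assoc, ← mul_assoc τ, h,
      one_mul, inv_mul_cancel])
    (fun e => n ((mul_mem_cancel_left (inv_mem (cj l))).1 ((mul_mem_cancel_right (cj l)).1 e))) (by rw [e, hl]; group)
    (mem_cent1.2 (by
      calc _ = m⁻¹ * y * τ m * (τ l)⁻¹ * (l * c * l⁻¹) * l := by group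
        _ = m⁻¹ * (y * (τ m * τ c * (τ m)⁻¹) * y⁻¹) * (y * τ m * (τ l)⁻¹ * l) := by rw [← hl]; group
        _ = _ := by rw [hm]; group))
    (by
      rw [e]
      simp only [map_mul, map_inv, tt]
      calc _ = m⁻¹ * (y * τ y) * m := by group
        _ = 1 := by rw [i']; group)
  refine ⟨m * k * l⁻¹, ?_⟩
  rw [e] at hk
  simp only [map_mul, map_inv]
  calc y = m * (m⁻¹ * y * τ m * (τ l)⁻¹ * l) * (l⁻¹ * τ l * (τ m)⁻¹) := by group
    _ = _ := by rw [hk]; group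

theorem pgL {L : List X} (h0 : 1 ∈ L) (h1 : ∀ a ∈ L, ∀ b ∈ L, a * b⁻¹ ∈ L) (h2 : ∀ a, τ a = a → a ^ 3 = 1 → a ∈ L)
    (h : a ∈ Pg 3 (fixedSubgroup τ)) : a ∈ L :=
  (closure_le (ofDiv {a | a ∈ L} ⟨1, h0⟩ h1)).2 (fun a ha => h2 a ha.1 ha.2) h

theorem p1 (h : a ∈ Pg 3 (fixedSubgroup (cn σ))) : a ∈ L1 := pgL (by decide) (by decide +kernel) (fun _ => m1) h

theorem p2 (h : a ∈ Pg 3 (fixedSubgroup (cn (σ * c.1)))) : a ∈ L2 := pgL (by decide) (by decide +kernel) (fun _ => m2) h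

theorem x12 (ha : a ∈ 𝐂[c]) (hb : b ∈ 𝐂[c]) (h1 : a ∈ L1) (h2 : b ∈ L2) : a ≠ 1 → a ≠ c → b ≠ 1 → b ≠ c → a * b ≠ b * a :=
  (by decide +kernel : ∀ a ∈ LU, a ∈ L1 → ∀ b ∈ LU, b ∈ L2 → a ≠ 1 → a ≠ c → b ≠ 1 → b ≠ c → a * b ≠ b * a) a (memU.1 ha) h1 b
    (memU.1 hb) h2

theorem pgm (y : X) (h : cn t y = y ∧ y ^ 3 = 1 ∧ cn t a = a) : a⁻¹ * (y * a * y⁻¹) ∈ Pg 3 (fixedSubgroup (cn t)) :=
  cm_mem_Pg h.2.2 h.1 h.2.1

theorem a6 : A6F 𝐂[c] c where
  syl := by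
    obtain ⟨e⟩ := T2.alt_six_centralizer c o2
    have k : Nat.card 𝐂[c] = 2 ^ 3 := by rw [Nat.card_congr e.toEquiv, DihedralGroup.nat_card]; rfl
    have := 𝐂[c].card_mul_index
    rw [k, cX] at this
    exact Syl.mk' le_top (.of_card k) (by rw [relIndex_top_right]; omega)
  d8 := T2.alt_six_centralizer c o2
  c1 := by decide
  zc y := ⟨fun h => (by decide +kernel : ∀ u ∈ LU, v * u = u * v → w * u = u * w → u = 1 ∨ u = c) y (memU.1 h.1)
    (mem_cent.1 h.2.1 v vU) (mem_cent.1 h.2.1 w wU), by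
      rintro (rfl | rfl)
      exacts [one_mem _, ⟨self_mem_cent1 c, le_cent1_iff.1 le_rfl, by decide⟩]⟩
  cD := (congrArg (· ∈ ⁅𝐂[c], 𝐂[c]⁆) (show v * w * v⁻¹ * w⁻¹ = c by decide)).mp (comm_mem_comm vU wU)
  sq u hu := (by decide +kernel : ∀ u ∈ LU, u * u = 1 ∨ u * u = c) u (memU.1 hu)
  u3 a ha b hb u hu := (by decide +kernel : ∀ x ∈ LU, ∀ y ∈ LU, ∀ w ∈ LU, x * x = 1 → y * y = 1 → w * w = 1 →
    x * y = y * x ∨ y * w = w * y ∨ x * w = w * x) a (memU.1 ha) b (memU.1 hb) u (memU.1 hu)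
  one _ := one
  nc := QT.NC.not_cy ⟨x, ⟨swap 0 4 * swap 4 5, mem_alternatingGroup.2 (by decide)⟩, by decide, by decide,
    show _ * _ = _ * _ by decide, by decide, fun h => absurd (MulAction.mem_stabilizer_iff.1
      (zpowers_le.2 (MulAction.mem_stabilizer_iff.2 (by decide) : _ ∈ MulAction.stabilizer X (1 : Fin 6)) h)) (by decide)⟩ Nat.prime_three
  o4 := o4
  oe := oe
  a2 _ _ := a2
  cu α h := by
    obtain ⟨s, rfl, i⟩ := fixU h
    refine ⟨by rw [← map_mul, (by rcases i with (rfl | rfl) | rfl | rfl <;> decide : s * s = 1), map_one], fun e => ?_⟩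
    rcases i with (rfl | rfl) | rfl | rfl
    exacts [.inl (map_one _), .inr rfl, absurd (inn.1 e) (by decide), absurd (inn.1 e) (by decide)]
  cu2 _ _ h k := par (let ⟨s, e, _⟩ := fixU h; ⟨s, e⟩) (let ⟨s, e, _⟩ := fixU k; ⟨s, e⟩)
  nu α τ h k n e := nU (by rcases out2 k n with rfl | rfl; exacts [K2t (.inl rfl) e, K2t (.inr rfl) e]) (fixc h)
  nu2 α h := by
    by_cases n : α ∈ cn.range
    · exact .inl (nU n (fixc h))
    · exact .inr ⟨v, vU, by rcases K3 (fixc h) n with e | e <;> rw [e] <;> decide⟩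
  oi τ h n := by
    by_cases m : τ ∈ cn.range
    · obtain ⟨s, rfl⟩ := m
      obtain ⟨k, t, i, rfl⟩ := inv2 (cn_inj (by rw [map_mul, h, map_one])) (odd n)
      refine .inl ⟨k⁻¹, fun u hu => ?_⟩
      rw [cn.map_mul, cn.map_mul, MulAut.mul_apply, MulAut.mul_apply, show cn k.1⁻¹ (k⁻¹⁻¹ * u * k⁻¹) = u from cn_eq.2 (by simp [mul_assoc]), scU i hu,
        inv_inv]
      rfl
    · exact .inr fun _ => oi h m
  ex τ h n := by
    rcases out2 h n with rfl | rfl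
    · exact ⟨_, ⟨mem_cent1.2 (by decide), pgm (a := c) x (by decide)⟩, by decide⟩
    · exact ⟨_, ⟨mem_cent1.2 (by decide), pgm (a := c) d (by decide)⟩, by decide⟩
  xf τ h n a ha b hb := by
    rcases out2 h n with rfl | rfl
    · exact x12 ha.1 hb.1 (p1 ha.2) (p2 (by rw [map_mul]; exact hb.2))
    · exact fun a1 a2 b1 b2 => (x12 hb.1 ha.1 (p1 (by
        rw [show σ = σ * c.1 * c.1 by decide, map_mul]; exact hb.2)) (p2 ha.2) b1 b2 a1 a2).symm

end A6m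
theorem a6_alt {Y : Type*} [Group Y] (e : Y ≃* alternatingGroup (Fin 6)) : A6E Y := ⟨_, _, _, _, ⟨e.symm⟩, A6m.a6⟩

end Cfsg.Lib.QJ
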