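import Cfsg.Agent.Lib.QJ.Small
import Cfsg.Agent.Lib.Pres.Carm

/-! # QJ, proper covers: definitions.
`Y1 ≅ L / Z(L)` and `Y0 ≅ Aut Y1` are subgroups of a model `Y`; `N(L)` acts through `p : G → Y` (as in `SzX.Hg`). -/

set_option autoImplicit false
set_option linter.unusedSectionVars false

namespace Cfsg.Lib.QJ

open Subgroup Cfsg.Lib.BG Cfsg.Lib.Comp Cfsg.Lib.QS Cfsg.Lib.Pres
open scoped Cfsg.Lib.Transfer commutatorElement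

section Facts

variable {Y : Type*} [Group Y]

/-- the subgroup generated by the elements of odd order -/
def Og (X : Subgroup Y) : Subgroup Y := closure {x | x ∈ X ∧ Odd (orderOf x)}

/-- 2-elements -/
def Te (x : Y) : Prop := ∃ n : ℕ, x ^ 2 ^ n = 1

/-- `c` is centralised by a Sylow 2-subgroup of `Y1` -/
def Tk (Y1 : Subgroup Y) (c : Y) : Prop := ∃ S, Syl 2 S Y1 ∧ S ≤ 𝐂[c]

/-- all involutions are 2-central -/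
def At (Y1 : Subgroup Y) : Prop := ∀ c ∈ Y1, c * c = 1 → Tk Y1 c

/-- generated by the elements of order three of `Y1` that commute with `s` -/
abbrev X3 (Y1 : Subgroup Y) (s : Y) : Subgroup Y := Pg 3 (Y1 ⊓ 𝐂[s])

/-- `l s l⁻¹ = s * ee s l` for an involution `s` -/
def ee (s l : Y) : Y := s * (l * s * l⁻¹)

/-- `|Out| ≤ 2`, 3-rank at least two -/
structure R3 (Y0 Y1 : Subgroup Y) : Prop where
  o2 : ∀ x ∈ Y0, x * x ∈ Y1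
  nc : ¬ QT.Cy 3 Y1

/-- `Out` has a normal 2-complement and elementary Sylow 2-subgroups -/
structure Ou (Y0 Y1 : Subgroup Y) : Prop where
  sq : ∀ x ∈ Y0, Te x → x * x ∈ Y1
  od : ∀ x ∈ Og Y0, Te x → x ∈ Y1

def Ex (Y0 Y1 : Subgroup Y) (c : Y) : Prop := ∀ α ∈ Y0, α ^ 4 = 1 → α ∈ 𝐂(X3 Y1 c) → α * α = 1

def Cx (Y0 Y1 : Subgroup Y) (c : Y) : Prop :=
  c ∈ X3 Y1 c ∧ ∀ β ∈ Y0, β * β = 1 → β ∈ 𝐂(X3 Y1 c) → X3 Y1 β ≤ 𝐂[c] → β = 1 ∨ β = c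

def Cz (Y0 Y1 : Subgroup Y) (c : Y) : Prop := ∀ α ∈ Y0, α ∈ 𝐂(X3 Y1 c) → α = 1 ∨ α = c

/-- the Sylow 2-subgroup `U` and an involution `c` of its centre -/
structure Pu (Y0 Y1 U : Subgroup Y) (c : Y) : Prop where
  syl : Syl 2 U Y1
  c1 : ∀ α ∈ Y0, α * α = 1 → α ∈ 𝐂(U) → α ∈ Y1
  hc : c ∈ Zc U
  ne : c ≠ 1
  t1 : ∀ a ∈ Zc U, a ≠ 1 → ∃ g ∈ Y1 ⊓ 𝐍(U), g * a * g⁻¹ = c

def Pq (Y1 : Subgroup Y) (c : Y) : Prop := ∃ u ∈ X3 Y1 c, ∃ v ∈ X3 Y1 c, v * v = 1 ∧ Tk Y1 v ∧ u * v * u⁻¹ = v * c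

/-- `L₃(4)`: the two `E₁₆` -/
structure Pe (Y0 Y1 A B : Subgroup Y) (c : Y) : Prop where
  lA : A ≤ Y1
  lB : B ≤ Y1
  eA : ∀ x ∈ A, x * x = 1
  eB : ∀ x ∈ B, x * x = 1
  cA : c ∈ A
  cB : c ∈ B
  nA : 16 ≤ Nat.card A
  nB : 16 ≤ Nat.card B
  ex : ∃ v ∈ A, ∃ u ∈ B, u * v * u⁻¹ = v * c
  inn : ∀ E ≤ Y0, (∀ x ∈ E, x * x = 1) → 16 ≤ Nat.card E → E ≤ Y1

/-- outer involutions, first kind -/
def O4 (Y1 : Subgroup Y) (s : Y) : Prop := ∃ l₁ ∈ Y1, ∃ l₂ ∈ Y1, ee s l₁ ∈ Og (Y1 ⊓ 𝐂[s]) ∧ ee s l₂ ∈ Og (Y1 ⊓ 𝐂[s]) ∧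
  ee s l₁ ≠ 1 ∧ ee s l₂ ≠ 1 ∧ ee s l₁ ≠ ee s l₂ ∧ l₂ ∈ 𝐂[ee s l₁]

variable {G : Type*} [Group G]

/-- outer involutions, second kind (`M₂₂`, class `2C`): `s` acts non-trivially on the preimage of its centraliser -/
def TW (Y1 : Subgroup Y) (p : G → Y) (L : Subgroup G) (s : Y) : Prop := (∃ l ∈ Y1, ee s l ≠ 1 ∧ ee s l ∈ Og (Y1 ⊓ 𝐂[s])) ∧
  ∃ u ∈ L, ∃ v ∈ L, ∃ u' ∈ L, ∃ v' ∈ L, Odd (orderOf u) ∧ Odd (orderOf v) ∧ Odd (orderOf u') ∧ Odd (orderOf v') ∧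
    p u' = s * p u * s⁻¹ ∧ p v' = s * p v * s⁻¹ ∧ ∃ κ ∈ 𝐂(L), u' * v' = u * v * κ ∧ ∀ x ∈ L, x ∈ 𝐂(L) → x ∈ zpowers κ

/-- outer involutions, third kind (`L₃(4)`, graph-field): the cover does not split over `Q₈` -/
def QF (Y1 : Subgroup Y) (p : G → Y) (L : Subgroup G) (s : Y) : Prop := ∃ a ∈ L, ∃ b ∈ L, ∃ l ∈ Y1, p a ∈ 𝐂[s] ∧ p b ∈ 𝐂[s] ∧
  ee s l ≠ 1 ∧ ee s l * ee s l = 1 ∧ p (a * a) = ee s l ∧ p (b * b) = ee s l ∧ p (a * b * (a * b)) = ee s l ∧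
    ¬ (a * a = b * b ∧ b * b = a * b * (a * b))

/-- the facts about a double cover -/
structure Lf (Y0 Y1 : Subgroup Y) (p : G → Y) (L : Subgroup G) (z : G) : Prop where
  nci : ∀ a ∈ L, ∀ y ∈ L, a * a = 1 → y * a * y⁻¹ ≠ a * z
  l1 : ∀ a ∈ L, p a * p a = 1 → Tk Y1 (p a) → a * a = 1
  b2 : ∀ a ∈ L, a * a = 1 → Tk Y1 (p a)
  out : ∀ s ∈ Y0, s ∉ Y1 → s * s = 1 → O4 Y1 s ∨ TW Y1 p L s ∨ QF Y1 p L s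

/-- `N(L)` acts on `L / Z(L) = Y1` through `p` -/
structure Ac (Y0 Y1 : Subgroup Y) (p : G → Y) (L : Subgroup G) : Prop where
  le : Y1 ≤ Y0
  nrm : Y0 ≤ 𝐍(Y1)
  cen : ∀ x ∈ Y0, x ∈ 𝐂(Y1) → x = 1
  hom : PHom 𝐍(L) p
  inA : ∀ x ∈ 𝐍(L), p x ∈ Y0
  inL : ∀ x ∈ L, p x ∈ Y1
  surj : ∀ y ∈ Y1, ∃ x ∈ L, p x = y
  zc : ∀ x ∈ 𝐍(L), p x = 1 → x ∈ 𝐂(L)

/-- the frame: `z` is the involution of the cyclic group `Z(L)` of order two or four -/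
structure Cv (Y0 Y1 : Subgroup Y) (p : G → Y) (L T : Subgroup G) (z : G) : Prop extends Fm L T where
  ac : Ac Y0 Y1 p L
  zL : z ∈ L
  zK : z ∈ 𝐂(L)
  oz : orderOf z = 2
  uq : ∀ x ∈ L, x ∈ 𝐂(L) → x * x = 1 → x = 1 ∨ x = z
  z4 : ∀ x ∈ L, x ∈ 𝐂(L) → x ^ 4 = 1

/-- `Z(L) = ⟨z⟩` -/
def Z2 (L : Subgroup G) (z : G) : Prop := ∀ x ∈ L, x ∈ 𝐂(L) → x = 1 ∨ x = z

/-- `Z(L) = ⟨κ⟩` has order four -/
def Z4 (L : Subgroup G) (z : G) : Prop := ∃ κ ∈ L, κ ∈ 𝐂(L) ∧ κ * κ = z ∧ ∀ x ∈ L, x ∈ 𝐂(L) → x ∈ zpowers κ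

/-- two frames with commuting conjugate involutions -/
structure Cp (Y0 Y1 : Subgroup Y) (p q : G → Y) (L M T V : Subgroup G) (z r : G) : Prop where
  l : Cv Y0 Y1 p L T z
  m : Cv Y0 Y1 q M V r
  cj : ∃ g : G, M = g ⋆ L ∧ r = g * z * g⁻¹
  ne : r ≠ z
  cm : r ∈ 𝐂[z]

/-- conjugates of `z` that induce inner automorphisms lie in `L` -/
def Mm (Y1 : Subgroup Y) (p : G → Y) (L : Subgroup G) (z : G) : Prop := ∀ w, IsConj z w → w ∈ 𝐂[z] → p w ∈ Y1 → w ∈ L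

/-- no other conjugate of `z` induces an inner automorphism -/
def Ni (Y1 : Subgroup Y) (p : G → Y) (z : G) : Prop := ∀ w, IsConj z w → w ∈ 𝐂[z] → p w ∈ Y1 → w = z

end Facts

end Cfsg.Lib.QJ
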