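import Cfsg.Agent.Lib.QJ.CDef
import Cfsg.Agent.Lib.Schur.Basic

/-! # QJ, proper covers: the action `p`, transport of the facts under conjugation, construction of frames -/

set_option autoImplicit false
set_option linter.unusedSectionVars false

namespace Cfsg.Lib.QJ

open Subgroup Cfsg.Lib.BG Cfsg.Lib.Comp Cfsg.Lib.QS Cfsg.Lib.Pres
open scoped Cfsg.Lib.Transfer commutatorElement

variable {G Y : Type*} [Group G] [Finite G] [Group Y] [Finite Y] {Y0 Y1 U A B : Subgroup Y} {p q : G → Y} {L M T V : Subgroup G}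
  {a g k r w x x' y z : G} {c s v : Y}

theorem split2 (x : G) : ∃ b ∈ zpowers x, ∃ c ∈ zpowers x, Te b ∧ Odd (orderOf c) ∧ x = b * c := by
  obtain ⟨u, hu, f, hf, h1, h2, h3, -⟩ := exists_pi_decomp {2} x
  obtain ⟨n, hn⟩ := (PiNat.p_iff (orderOf_pos u).ne').1 h1
  exact ⟨u, hu, f, hf, ⟨n, hn ▸ pow_orderOf_eq_one u⟩,
    Nat.not_even_iff_odd.1 fun e => PiNat.p'_iff.1 h2 (even_iff_two_dvd.1 e), h3⟩

theorem Te.one (t : Te x) (o : Odd (orderOf x)) : x = 1 := let ⟨n, e⟩ := t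
  orderOf_eq_one_iff.1 (Nat.eq_one_of_dvd_coprimes (o.coprime_two_right.pow_right n) dvd_rfl (orderOf_dvd_of_pow_eq_one e))

theorem conj_clo (v : Y) (X : Subgroup Y) {P : Y → Prop} (hP : ∀ x, P (v * x * v⁻¹) ↔ P x) :
    v ⋆ closure {x | x ∈ X ∧ P x} = closure {x | x ∈ v ⋆ X ∧ P x} := by
  rw [MonoidHom.map_closure]
  congr 1
  ext y
  exact ⟨fun ⟨x, h, e⟩ => e ▸ ⟨⟨x, h.1, rfl⟩, (hP x).2 h.2⟩, fun ⟨⟨x, h, e⟩, k⟩ => ⟨x, ⟨h, (hP x).1 (by subst e; exact k)⟩, e⟩⟩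

theorem pg_conj (n : ℕ) (v : Y) (X : Subgroup Y) : v ⋆ Pg n X = Pg n (v ⋆ X) :=
  conj_clo v X fun x => by rw [conj_pow, conj_eq_one_iff]

theorem ee_conj (v s l : Y) : ee (v * s * v⁻¹) (v * l * v⁻¹) = v * ee s l * v⁻¹ := by simp [ee, mul_assoc]

theorem cj_mul (v a b : Y) : v * a * v⁻¹ * (v * b * v⁻¹) = v * (a * b) * v⁻¹ := by simp [mul_assoc]

theorem cj_cent1 (v : Y) (h : c ∈ 𝐂[s]) : v * c * v⁻¹ ∈ 𝐂[v * s * v⁻¹] := conj_cent1 v s ▸ Transfer.conj_mem_conj.2 h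

theorem cj_ex (v α : Y) : ∃ β, α = v * β * v⁻¹ := ⟨v⁻¹ * α * v, by simp [mul_assoc]⟩

theorem ic_conj (hv : v ∈ 𝐍(Y1)) (s : Y) : v ⋆ (Y1 ⊓ 𝐂[s]) = Y1 ⊓ 𝐂[v * s * v⁻¹] := by
  rw [Transfer.conj_inf, conj_eq_of_norm hv, conj_cent1]

theorem og_mem_conj (hv : v ∈ 𝐍(Y1)) (h : c ∈ Og (Y1 ⊓ 𝐂[s])) : v * c * v⁻¹ ∈ Og (Y1 ⊓ 𝐂[v * s * v⁻¹]) := by
  rw [← ic_conj hv, Og, ← conj_clo v _ fun x => by rw [Inv.orderOf_conj']]
  exact Transfer.conj_mem_conj.2 h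

namespace Ac

variable (h : Ac Y0 Y1 p L)
include h

theorem conj (g : G) : Ac Y0 Y1 (fun x => p (g⁻¹ * x * g)) (g ⋆ L) := by
  have m : ∀ x ∈ 𝐍(g ⋆ L), g⁻¹ * x * g ∈ 𝐍(L) := fun x hx => by rwa [← Transfer.conj_normalizer, Transfer.mem_conj] at hx
  refine ⟨h.le, h.nrm, h.cen, fun x hx y hy => ?_, fun x hx => h.inA _ (m x hx), fun x hx => h.inL _ (Transfer.mem_conj.1 hx),
    fun y hy => ?_, fun x hx e => ?_⟩
  · rw [← h.hom _ (m x hx) _ (m y hy)]; simp [mul_assoc]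
  · obtain ⟨x, a, rfl⟩ := h.surj y hy
    exact ⟨g * x * g⁻¹, Transfer.conj_mem_conj.2 a, by simp [mul_assoc]⟩
  · rw [← Transfer.conj_centralizer, Transfer.mem_conj]
    exact h.zc _ (m x hx) e

/-- `cen`, `surj` (see `SzX.Hg.pk`) -/
theorem pk (hk : k ∈ 𝐂(L)) : p k = 1 :=
  h.cen _ (h.inA _ (cent_le_norm L hk)) (mem_cent.2 fun l b => by
  obtain ⟨y, c, rfl⟩ := h.surj l b
  exact h.hom.commute (le_norm L c) (cent_le_norm L hk) (mem_cent.1 hk y c))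

theorem dec (hx : x ∈ 𝐍(L)) (hy : y ∈ 𝐍(L)) (e : p x = p y) : y⁻¹ * x ∈ 𝐂(L) :=
  h.zc _ (mul_mem (inv_mem hy) hx) (by rw [h.hom _ (inv_mem hy) _ hx, h.hom.inv hy, e, inv_mul_cancel])

/-- an element that induces an inner automorphism -/
theorem inn (hx : x ∈ 𝐍(L)) (e : p x ∈ Y1) : ∃ a ∈ L, ∃ k ∈ 𝐂(L), x = a * k :=
  let ⟨a, ha, i⟩ := h.surj _ e
  ⟨a, ha, _, h.dec hx (le_norm L ha) i.symm, (mul_inv_cancel_left a x).symm⟩

/-- take the `2'`-part of a lift (see `SzX.Hg.liftOdd`) -/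
theorem liftOdd (hv : v ∈ Y1) (o : Odd (orderOf v)) : ∃ x ∈ L, Odd (orderOf x) ∧ p x = v := by
  obtain ⟨x, a, rfl⟩ := h.surj v hv
  obtain ⟨b, mb, c, mc, ⟨n, tb⟩, oc, e⟩ := split2 x
  have i := le_norm L (zpowers_le.2 a mb)
  have j := zpowers_le.2 a mc
  refine ⟨c, j, oc, ?_⟩
  have : p b = 1 := Te.one ⟨n, by rw [← h.hom.pow i, tb, h.hom.one]⟩ (by
    obtain ⟨n, rfl⟩ := mb; rw [h.hom.zpow (le_norm L a)]; exact o.of_dvd_nat (orderOf_dvd_of_mem_zpowers ⟨n, rfl⟩))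
  rw [e, h.hom _ i _ (le_norm L j), this, one_mul]

/-- `x' = x ζ` with `ζ⁴ = 1` central -/
theorem odd_uq (z4 : ∀ x ∈ L, x ∈ 𝐂(L) → x ^ 4 = 1) (hx : x ∈ L) (hx' : x' ∈ L) (o : Odd (orderOf x)) (o' : Odd (orderOf x'))
    (e : p x = p x') : x = x' := by
  have k := h.dec (le_norm L hx) (le_norm L hx') e
  have c : Commute x'⁻¹ x := by
    have := mem_cent.1 k x' hx'
    rw [mul_inv_cancel_left, mul_assoc] at this
    exact (show Commute x' x from (inv_mul_eq_iff_eq_mul.1 this.symm).symm).inv_left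
  refine (inv_mul_eq_one.1 (Te.one ⟨2, z4 _ (mul_mem (inv_mem hx') hx) k⟩ ?_)).symm
  exact (Odd.mul (orderOf_inv x' ▸ o') o).of_dvd_nat c.orderOf_mul_dvd_mul_orderOf

theorem odd_cm (z4 : ∀ x ∈ L, x ∈ 𝐂(L) → x ^ 4 = 1) (hx : x ∈ L) (o : Odd (orderOf x)) (hy : y ∈ 𝐍(L)) (e : p x ∈ 𝐂[p y]) : x ∈ 𝐂[y] :=
  mem_cent1.2 (mul_inv_eq_iff_eq_mul.1 (h.odd_uq z4 (conj_mem_of_norm hy hx) hx (by rwa [Inv.orderOf_conj']) o
    (by rw [h.hom.conj hy (le_norm L hx), ← mem_cent1.1 e, mul_inv_cancel_right]))).symm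

/-- conjugate by a lift of `v` -/
theorem tw_conj (hv : v ∈ Y1) (k : TW Y1 p L s) : TW Y1 p L (v * s * v⁻¹) := by
  obtain ⟨⟨l, l1, l2, l3⟩, a, ha, b, hb, a', ha', b', hb', o1, o2, o3, o4, e1, e2, κ, k1, k2, k3⟩ := k
  obtain ⟨t, ht, rfl⟩ := h.surj v hv
  have n := le_norm L ht
  have m : ∀ x ∈ L, t * x * t⁻¹ ∈ L := fun x hx => conj_mem_of_norm n hx
  have e : ∀ x ∈ L, p (t * x * t⁻¹) = p t * p x * (p t)⁻¹ := fun x hx => h.hom.conj n (le_norm L hx)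
  refine ⟨⟨_, conj_mem_of_norm (le_norm Y1 hv) l1, by rwa [ee_conj, Ne, conj_eq_one_iff], ee_conj _ s l ▸ og_mem_conj (le_norm Y1 hv) l3⟩,
    _, m a ha, _, m b hb, _, m a' ha', _, m b' hb', by rwa [Inv.orderOf_conj'], by rwa [Inv.orderOf_conj'],
    by rwa [Inv.orderOf_conj'], by rwa [Inv.orderOf_conj'], ?_, ?_, κ, k1, ?_, k3⟩
  · rw [e _ ha', e _ ha, e1]; group
  · rw [e _ hb', e _ hb, e2]; group
  · rw [cj_mul, cj_mul, k2, mul_assoc _ t⁻¹, mem_cent.1 k1 _ (inv_mem ht)]; group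

theorem qf_conj (hv : v ∈ Y1) (k : QF Y1 p L s) : QF Y1 p L (v * s * v⁻¹) := by
  obtain ⟨a, ha, b, hb, l, hl, c1, c2, e1, e2, e3, e4, e5, e6⟩ := k
  obtain ⟨t, ht, rfl⟩ := h.surj v hv
  have n := le_norm L ht
  have m : ∀ x ∈ L, t * x * t⁻¹ ∈ L := fun x hx => conj_mem_of_norm n hx
  have e : ∀ x ∈ L, p (t * x * t⁻¹) = p t * p x * (p t)⁻¹ := fun x hx => h.hom.conj n (le_norm L hx)
  refine ⟨_, m a ha, _, m b hb, _, conj_mem_of_norm (le_norm Y1 hv) hl, e a ha ▸ cj_cent1 _ c1, e b hb ▸ cj_cent1 _ c2, ?_⟩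
  simp only [cj_mul, ee_conj, Ne, conj_eq_one_iff, mul_left_inj, mul_right_inj]
  rw [e _ (mul_mem ha ha), e _ (mul_mem hb hb), e _ (mul_mem (mul_mem ha hb) (mul_mem ha hb)), e3, e4, e5]
  exact ⟨e1, e2, rfl, rfl, rfl, e6⟩

end Ac

theorem x3_conj (hv : v ∈ 𝐍(Y1)) (s : Y) : v ⋆ X3 Y1 s = X3 Y1 (v * s * v⁻¹) := by
  rw [pg_conj, ic_conj hv]

theorem og_conj (v : Y) (X : Subgroup Y) : v ⋆ Og X = Og (v ⋆ X) :=
  conj_clo v X fun x => by rw [Inv.orderOf_conj']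

theorem Tk.conj (h : Tk Y1 c) (hv : v ∈ 𝐍(Y1)) : Tk Y1 (v * c * v⁻¹) :=
  let ⟨S, a, b⟩ := h
  ⟨v ⋆ S, a.conj_of_norm hv, conj_cent1 v c ▸ Transfer.conj_mono v b⟩

theorem Ex.conj (h : Ex Y0 Y1 c) (n : Y0 ≤ 𝐍(Y1)) (hv : v ∈ Y0) : Ex Y0 Y1 (v * c * v⁻¹) := fun α a b m => by
  obtain ⟨β, rfl⟩ := cj_ex v α
  rw [← x3_conj (n hv), ← Transfer.conj_centralizer, Transfer.conj_mem_conj] at m
  rw [conj_pow, conj_eq_one_iff] at b
  rw [cj_mul, conj_eq_one_iff]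
  exact h β ((mul_mem_cancel_left hv).1 ((mul_mem_cancel_right (inv_mem hv)).1 a)) b m

theorem Cx.conj (h : Cx Y0 Y1 c) (n : Y0 ≤ 𝐍(Y1)) (hv : v ∈ Y0) : Cx Y0 Y1 (v * c * v⁻¹) := by
  refine ⟨x3_conj (n hv) c ▸ Transfer.conj_mem_conj.2 h.1, fun α a b m l => ?_⟩
  obtain ⟨β, rfl⟩ := cj_ex v α
  rw [← x3_conj (n hv), ← Transfer.conj_centralizer, Transfer.conj_mem_conj] at m
  rw [← x3_conj (n hv), ← conj_cent1, Transfer.conj_le_conj_iff] at l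
  rw [cj_mul, conj_eq_one_iff] at b
  rw [conj_eq_one_iff, mul_left_inj, mul_right_inj]
  exact h.2 β ((mul_mem_cancel_left hv).1 ((mul_mem_cancel_right (inv_mem hv)).1 a)) b m l

theorem Cz.conj (h : Cz Y0 Y1 c) (n : Y0 ≤ 𝐍(Y1)) (hv : v ∈ Y0) : Cz Y0 Y1 (v * c * v⁻¹) := fun α a m => by
  obtain ⟨β, rfl⟩ := cj_ex v α
  rw [← x3_conj (n hv), ← Transfer.conj_centralizer, Transfer.conj_mem_conj] at m
  rw [conj_eq_one_iff, mul_left_inj, mul_right_inj]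
  exact h β ((mul_mem_cancel_left hv).1 ((mul_mem_cancel_right (inv_mem hv)).1 a)) m

theorem O4.conj (h : O4 Y1 s) (hv : v ∈ 𝐍(Y1)) : O4 Y1 (v * s * v⁻¹) := by
  obtain ⟨a, ha, b, hb, k1, k2, k3, k4, k5, k6⟩ := h
  refine ⟨_, conj_mem_of_norm hv ha, _, conj_mem_of_norm hv hb, ?_⟩
  simp only [ee_conj, Ne, conj_eq_one_iff, mul_left_inj, mul_right_inj]
  exact ⟨og_mem_conj hv k1, og_mem_conj hv k2, k3, k4, k5, cj_cent1 v k6⟩

/-- an element of odd order is a power of its square -/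
theorem R3.ou (h : R3 Y0 Y1) : Ou Y0 Y1 :=
  ⟨fun x hx _ => h.o2 x hx, fun _ hx _ => (closure_le Y1).2 (fun y (⟨hy, o⟩ : y ∈ Y0 ∧ Odd (orderOf y)) => by
    obtain ⟨j, e⟩ := exists_pow_eq_self_of_coprime (x := y) (n := 2) o.coprime_two_left
    exact e ▸ pow_mem (sq y ▸ h.o2 y hy) j) hx⟩

/-- see `SzX.exists_hg` -/
theorem exists_ac (pf : commutator L = ⊤) (e : L ⧸ center L ≃* Y1) (le : Y1 ≤ Y0) (nrm : Y0 ≤ 𝐍(Y1)) (cen : ∀ x ∈ Y0, x ∈ 𝐂(Y1) → x = 1)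
    (aut : ∀ α : MulAut Y1, ∃ s ∈ Y0, ∀ y : Y1, (α y : Y) = s * y * s⁻¹) : ∃ p : G → Y, Ac Y0 Y1 p L := by
  let π : L →* Y := Y1.subtype.comp (e.toMonoidHom.comp (QuotientGroup.mk' _))
  have pk : ∀ m, π m = 1 ↔ m ∈ center L := fun m =>
    OneMemClass.coe_eq_one.trans ((map_eq_one_iff e e.injective).trans (QuotientGroup.eq_one_iff m))
  have ps : ∀ l ∈ Y1, ∃ m, π m = l := fun l a => by
    obtain ⟨m, b⟩ := (e.surjective.comp (QuotientGroup.mk'_surjective _)) ⟨l, a⟩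
    exact ⟨m, congrArg Subtype.val b⟩
  have inj : ∀ y ∈ Y0, ∀ y' ∈ Y0, (∀ l, y * π l * y⁻¹ = y' * π l * y'⁻¹) → y = y' := fun y a y' b h =>
    (inv_mul_eq_one.1 (cen _ (mul_mem (inv_mem b) a) (mem_cent.2 fun l c => by
      obtain ⟨m, rfl⟩ := ps l c
      rw [mul_assoc, mul_inv_eq_iff_eq_mul.1 (h m)]; group))).symm
  have : ∀ g, ∃ y ∈ Y0, ∀ h : g ∈ 𝐍(L), ∀ l : L, π (L.normalizerMonoidHom ⟨g, h⟩ l) = y * π l * y⁻¹ := fun g => by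
    by_cases h : g ∈ 𝐍(L)
    swap
    · exact ⟨1, one_mem _, fun e => absurd e h⟩
    obtain ⟨y, u, v⟩ := aut (e.symm.trans ((QuotientGroup.congr _ _ (L.normalizerMonoidHom ⟨g, h⟩)
      (characteristic_iff_map_eq.1 inferInstance _)).trans e))
    exact ⟨y, u, fun _ m => Eq.trans (by simp [π]; rfl) (v (e m))⟩
  choose p pA hp using this
  have pl : ∀ l : L, p l = π l := fun l => inj _ (pA _) _ (le (e l).2) fun k => by
    rw [← map_inv π, ← map_mul π, ← map_mul π]; exact (hp l (le_normalizer l.2) k).symm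
  have : Group.IsPerfect L := ⟨pf⟩
  refine ⟨p, le, nrm, cen, fun g a k b => inj _ (pA _) _ (mul_mem (pA _) (pA _)) fun l => ?_, fun x _ => pA x,
    fun x a => pl ⟨x, a⟩ ▸ (e _).2, fun y a => ?_, fun x a b m c => ?_⟩
  · rw [mul_inv_rev (p g), mul_assoc (p g), mul_assoc (p g), ← mul_assoc _ (p k)⁻¹, ← hp k b, ← mul_assoc, ← hp g a,
      ← hp _ (mul_mem a b), ← MulAut.mul_apply, ← map_mul]
    rfl
  · obtain ⟨m, rfl⟩ := ps y a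
    exact ⟨m, m.2, pl m⟩
  · have := Schur.eq_of_central_of_perfect (ξ := π) (fun m c => (pk m).1 c) (η := (L.normalizerMonoidHom ⟨x, a⟩).toMonoidHom)
      (η' := .id L) (MonoidHom.ext fun m => ((hp x a m).trans (by simp [b]) : π (L.normalizerMonoidHom ⟨x, a⟩ m) = π m))
    exact (mul_inv_eq_iff_eq_mul.1 (congrArg Subtype.val (DFunLike.congr_fun this ⟨m, c⟩) :)).symm

theorem mem_center_sub (hx : x ∈ L) : (⟨x, hx⟩ : L) ∈ center L ↔ x ∈ 𝐂(L) :=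
  mem_center_iff.trans ⟨fun h => mem_cent.2 fun y hy => congrArg Subtype.val (h ⟨y, hy⟩),
    fun h y => Subtype.ext (mem_cent.1 h y y.2)⟩

theorem zp_of_card (hk : k ∈ L) (m : k ∈ 𝐂(L)) (e : orderOf k = Nat.card (center L)) (hx : x ∈ L) (c : x ∈ 𝐂(L)) :
    x ∈ zpowers k := by
  have := eq_of_le_of_card_ge (zpowers_le.2 ((mem_center_sub hk).2 m)) (by rw [Nat.card_zpowers, orderOf_mk, e])
  obtain ⟨n, hn⟩ := this.ge ((mem_center_sub hx).2 c)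
  exact ⟨n, congrArg Subtype.val hn⟩

theorem card_of_zp (hk : k ∈ L) (m : k ∈ 𝐂(L)) (h : ∀ x ∈ L, x ∈ 𝐂(L) → x ∈ zpowers k) : Nat.card (center L) = orderOf k := by
  rw [← orderOf_mk k hk, ← Nat.card_zpowers]
  congr 2
  refine le_antisymm (fun x hx => ?_) (zpowers_le.2 ((mem_center_sub hk).2 m))
  obtain ⟨n, hn⟩ := h x x.2 ((mem_center_sub x.2).1 hx)
  exact ⟨n, Subtype.ext hn⟩

theorem Fm.exists_c2 (h : Fm L T) (a : Ac Y0 Y1 p L) (c : Nat.card (center L) = 2) : ∃ z, Cv Y0 Y1 p L T z ∧ Z2 L z := by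
  obtain ⟨⟨⟨z, zL⟩, hz⟩, o⟩ := exists_prime_orderOf_dvd_card' (G := center L) 2 c.symm.dvd
  rw [orderOf_mk, orderOf_mk] at o
  have zK := (mem_center_sub zL).1 hz
  have k : Z2 L z := fun x hx m => by
    obtain ⟨n, rfl⟩ := mem_powers_iff_mem_zpowers.2 (zp_of_card zL zK (o.trans c.symm) hx m)
    change z ^ n = 1 ∨ z ^ n = z
    rw [← pow_mod_orderOf, o]
    rcases Nat.mod_two_eq_zero_or_one n with e | e <;> simp [e]
  refine ⟨z, ⟨h, a, zL, zK, o, fun x hx m _ => k x hx m, fun x hx m => ?_⟩, k⟩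
  rcases k x hx m with rfl | rfl
  exacts [one_pow 4, orderOf_dvd_iff_pow_eq_one.1 (o ▸ by decide)]

theorem Fm.exists_c4 (h : Fm L T) (a : Ac Y0 Y1 p L) (c : Nat.card (center L) = 4) (y : IsCyclic (center L)) :
    ∃ z, Cv Y0 Y1 p L T z ∧ Z4 L z := by
  obtain ⟨⟨⟨k, kL⟩, hk⟩, o⟩ := IsCyclic.exists_ofOrder_eq_natCard (α := center L)
  rw [orderOf_mk, orderOf_mk] at o
  have kK := (mem_center_sub kL).1 hk
  have z := fun x hx m => zp_of_card (x := x) kL kK o hx m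
  rw [c] at o
  have o2 : orderOf (k * k) = 2 := by rw [← sq, orderOf_pow, o]; rfl
  refine ⟨k * k, ⟨h, a, mul_mem kL kL, mul_mem kK kK, o2, fun x hx m e => or_iff_not_imp_left.2 fun n => ?_, fun x hx m => ?_⟩,
    k, kL, kK, rfl, z⟩
  · exact Inv.eq_of_isCyclic_of_orderOf_two inferInstance (z x hx m) (mul_mem (mem_zpowers k) (mem_zpowers k))
      (Inv.ord_two_iff.2 ⟨n, e⟩) o2
  · exact orderOf_dvd_iff_pow_eq_one.1 (o ▸ orderOf_dvd_of_mem_zpowers (z x hx m))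

theorem Z2.conj (h : Z2 L z) (g : G) : Z2 (g ⋆ L) (g * z * g⁻¹) := fun x a m => by
  obtain ⟨y, rfl⟩ := cj_ex g x
  rw [← Transfer.conj_centralizer, Transfer.conj_mem_conj] at m
  rw [conj_eq_one_iff, mul_left_inj, mul_right_inj]
  exact h y (Transfer.conj_mem_conj.1 a) m

theorem Z4.conj (h : Z4 L z) (g : G) : Z4 (g ⋆ L) (g * z * g⁻¹) := by
  obtain ⟨κ, a, b, c, d⟩ := h
  refine ⟨_, Transfer.conj_mem_conj.2 a, Transfer.conj_centralizer g L ▸ Transfer.conj_mem_conj.2 b, by rw [cj_mul, c],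
    fun x i j => ?_⟩
  rw [← Transfer.conj_centralizer, Transfer.mem_conj] at j
  rw [← Transfer.conj_zpowers, Transfer.mem_conj]
  exact d _ (Transfer.mem_conj.1 i) j

theorem Z2.card (h : Z2 L z) (zL : z ∈ L) (zK : z ∈ 𝐂(L)) (o : orderOf z = 2) : Nat.card (center L) = 2 :=
  o ▸ card_of_zp zL zK fun x a m => (h x a m).elim (· ▸ one_mem _) (· ▸ mem_zpowers _)

theorem Z4.card (h : Z4 L z) (o : orderOf z = 2) : Nat.card (center L) = 4 := by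
  obtain ⟨κ, a, b, rfl, d⟩ := h
  rw [card_of_zp a b d]
  exact orderOf_eq_prime_pow (p := 2) (n := 1) (fun e => by rw [← sq, ← pow_one 2, e, orderOf_one] at o; omega)
    (by rw [show 2 ^ (1 + 1) = 2 * 2 from rfl, pow_mul, sq κ, ← o, pow_orderOf_eq_one])

end Cfsg.Lib.QJ
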