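import Cfsg.Agent.Lib.QS.Def
import Cfsg.Agent.S1754

/-! # QJ tower (S1817): definitions.  See `docs/QJ.md`.

`L` is a standard subgroup of the simple quasithin group `G` that is normalised by a Sylow 2-subgroup `T` of `G`.
The facts about the simple group `Y ≅ L / Z(L)` are stated for a fixed model `Y`; no transport is needed. -/

set_option autoImplicit false
set_option linter.unusedSectionVars false

namespace Cfsg.Lib.QJ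

open Subgroup Cfsg.Lib.BG Cfsg.Lib.Comp Cfsg.Lib.QS
open scoped Cfsg.Lib.Transfer commutatorElement

/-! ### facts about `Y` -/

section Facts

variable {Y : Type*} [Group Y]

/-- `c` is centralised by a Sylow 2-subgroup -/
def Tc (c : Y) : Prop := ∃ S : Subgroup Y, Syl 2 S ⊤ ∧ S ≤ 𝐂[c]

/-- `Ω₁ Z(U)` -/
def Zc (U : Subgroup Y) : Subgroup Y where
  carrier := {c | c ∈ U ∧ c ∈ 𝐂(U) ∧ c * c = 1}
  one_mem' := ⟨one_mem _, one_mem _, one_mul 1⟩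
  mul_mem' {a b} ha hb := ⟨mul_mem ha.1 hb.1, mul_mem ha.2.1 hb.2.1, by
    rw [mul_assoc, ← mul_assoc b, mem_cent.1 ha.2.1 b hb.1, mul_assoc, hb.2.2, mul_one, ha.2.2]⟩
  inv_mem' {a} ha := ⟨inv_mem ha.1, inv_mem ha.2.1, by rw [← mul_inv_rev, ha.2.2, inv_one]⟩

theorem mem_Zc {U : Subgroup Y} {c : Y} : c ∈ Zc U ↔ c ∈ U ∧ c ∈ 𝐂(U) ∧ c * c = 1 := Iff.rfl

/-- the subgroup generated by the elements `x ∈ X` with `x ^ p = 1` -/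
def Pg (p : ℕ) (X : Subgroup Y) : Subgroup Y := closure {x | x ∈ X ∧ x ^ p = 1}

/-- `N(U)` is transitive on the set `M` -/
def Tr (U : Subgroup Y) (M : Set Y) : Prop := ∀ a ∈ M, ∀ b ∈ M, ∃ g ∈ 𝐍(U), g * a * g⁻¹ = b

/-- `N(U)` is transitive on the involutions of `Z(U)` -/
def T1 (U : Subgroup Y) : Prop := Tr U {c | c ∈ Zc U ∧ c ≠ 1}

/-- `Sp₄(q)`: three orbits of `N(U)` on the involutions of `Z(U) = A × B` -/
structure S4 (U A B : Subgroup Y) (p : ℕ) : Prop where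
  inf : A ⊓ B = ⊥
  sup : A ⊔ B = Zc U
  card : Nat.card A = Nat.card B
  four : 4 ≤ Nat.card A
  tA : Tr U {c | c ∈ A ∧ c ≠ 1}
  tB : Tr U {c | c ∈ B ∧ c ≠ 1}
  tM : Tr U {c | c ∈ Zc U ∧ c ∉ A ∧ c ∉ B}
  pp : p.Prime
  p2 : p ≠ 2
  nc : ¬ QT.Cy p Y
  sol : Group.IsSolvable (Out Y)
  gen : ∀ c, c ∈ A ∨ c ∈ B → c ≠ 1 → ∃ X ≤ 𝐂[c], ⁅X, X⁆ = X ∧ U ≤ Pg p X

/-- the facts on a Sylow 2-subgroup used for 2-central involutions -/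
structure P1 (U : Subgroup Y) : Prop where
  syl : Syl 2 U ⊤
  c1 : ∀ α : MulAut Y, α * α = 1 → (∀ x ∈ U, α x = x) → α ∈ Inn Y
  b3 : ∀ f : U →* Out Y, Zc U ≤ ⁅f.ker.map U.subtype, U⁆
  tr : T1 U ∨ ∃ A B p, S4 U A B p

/-- first alternative for an involution `t` that is not 2-central -/
def P2 (t : Y) : Prop := ∃ x, ∃ hx : x ∈ 𝐂[t], x * x = 1 ∧ x ≠ 1 ∧ Tc x ∧ IsConj t (t * x) ∧
  ∀ F : 𝐂[t] →* MulAut Y, ∃ c, c * c = 1 ∧ Tc c ∧ F ⟨x, hx⟩ = MulAut.conj c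

/-- second alternative (`²F₄(q)`, Tits group) -/
structure PV (p : ℕ) (t : Y) (V : Subgroup Y) (h : Y) (S : Subgroup Y) : Prop where
  ne : V ≠ ⊥
  le : V ≤ 𝐂[t]
  el : ∀ v ∈ V, v * v = 1
  tc : ∀ v ∈ V, Tc v ∧ IsConj t (t * v)
  nV : 𝐂[t] ≤ 𝐍(V)
  hc : h ∈ 𝐂[t]
  hp : h ^ p = 1
  fpf : ∀ v ∈ V, v ∈ 𝐂[h] → v = 1
  pS : IsPGroup 2 S
  gS : S ≤ Pg p 𝐂[t]
  cS : ∀ y ∈ 𝐂[t], y ∈ 𝐂(S) → y * y = 1 → ∃ v ∈ V, v * y ∈ 𝐂(𝐂[t])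

/-- the facts used for inner involutions -/
def In (Y : Type*) [Group Y] : Prop := (∀ t : Y, orderOf t = 2 → Tc t ∨ P2 t) ∨
  ∃ p : ℕ, p.Prime ∧ p ≠ 2 ∧ ¬ p ∣ Nat.card (Out Y) ∧ ¬ QT.Cy p Y ∧ ¬ 4 ∣ Nat.card (Out Y) ∧
    ∀ t : Y, orderOf t = 2 → Tc t ∨ ∃ V h S, PV p t V h S

/-- outer involutions, first alternative (the second part is `LieU.z3`) -/
def O1 (U : Subgroup Y) : Prop := QT.Cy 2 (Out Y) ∧
  ∀ α : MulAut Y, α ^ 4 = 1 → (∀ x ∈ U, α x ∈ U) → (∀ c ∈ Zc U, α c = c) → α * α ∈ Inn Y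

/-- outer involutions, second alternative (`L₃(4ⁿ)`) -/
def OS (Y : Type*) [Group Y] : Prop := ∀ σ : MulAut Y, σ * σ = 1 → σ ∉ Inn Y → ∀ F : fixedSubgroup σ →* Out Y,
  ∃ l : Y, ∃ h : l⁻¹ * σ l ∈ fixedSubgroup σ, l⁻¹ * σ l ≠ 1 ∧ F ⟨_, h⟩ = 1

/-- the main list of facts -/
def Mn (Y : Type*) [Group Y] : Prop := ∃ U : Subgroup Y, P1 U ∧ In Y ∧ (O1 U ∨ OS Y)

/-- `A₈`; only used if `C(L)` has 2-rank one -/
def Mf (Y : Type*) [Group Y] : Prop := (∃ U : Subgroup Y, P1 U) ∧ ¬ 4 ∣ Nat.card (Out Y) ∧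
  ∀ t : Y, orderOf t = 2 → Tc t ∨ ∀ a, a * a = t → ∃ g ∈ 𝐂[t],
    (a⁻¹ * (g * a * g⁻¹)) * (a⁻¹ * (g * a * g⁻¹)) = 1 ∧ a⁻¹ * (g * a * g⁻¹) ≠ 1 ∧ a⁻¹ * (g * a * g⁻¹) ≠ t

/-- no four-group -/
def Nf (K : Subgroup Y) : Prop := ∀ a ∈ K, ∀ b ∈ K, a * a = 1 → b * b = 1 → a * b = b * a → a = 1 ∨ b = 1 ∨ a = b

end Facts

/-! ### frames -/

variable {G Y : Type*} [Group G] [Group Y]

/-- what is used of the simple group `G` (from `QE.Hy`: `.nab`, `.sq1`) -/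
structure H0 (G : Type*) [Group G] : Prop where
  nab : ¬ IsMulCommutative G
  sq1 : ∀ t : G, orderOf t = 2 → QT.SQ 𝐂[t]

/-- `L` is standard and normalised by the Sylow 2-subgroup `T` -/
structure Fm (L T : Subgroup G) : Prop where
  hy : H0 G
  std : IsStandardSubgroup L
  syl : Syl 2 T ⊤
  nT : T ≤ 𝐍(L)

/-- `r` is an involution in a conjugate of `K = C(L)` -/
def Iv (L : Subgroup G) (r : G) : Prop := orderOf r = 2 ∧ ∃ g : G, r ∈ 𝐂(g ⋆ L)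

/-- `L` is the only conjugate of `L` normalised by `T` -/
def Uq (L T : Subgroup G) : Prop := ∀ g : G, T ≤ 𝐍(g ⋆ L) → g ⋆ L = L

/-- members of `𝓘` outside `K` induce outer automorphisms on `L` -/
def NI (L : Subgroup G) : Prop := ∀ r, Iv L r → r ∈ L ⊔ 𝐂(L) → r ∈ 𝐂(L)

/-- two different conjugates `L`, `M` with compatible Sylow subgroups -/
structure Pd (L M S T V : Subgroup G) : Prop where
  l : Fm L T
  m : Fm M V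
  cj : ∃ g : G, M = g ⋆ L
  ne : M ≠ L
  syl : Syl 2 S (𝐍(L) ⊓ 𝐍(M))
  sT : S ≤ T
  sV : S ≤ V

/-- frame for simple `L = ψ(Y)` -/
structure Sf (ψ : Y →* G) (T : Subgroup G) : Prop extends Fm ψ.range T where
  inj : Function.Injective ψ
  zb : center Y = ⊥

/-- the same with the facts `P1` for `U = ψ⁻¹(T)` -/
structure Sg (ψ : Y →* G) (T : Subgroup G) (U : Subgroup Y) : Prop extends Sf ψ T where
  hU : T.comap ψ = U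
  p1 : P1 U

/-- the action of `N(L)` on `Y` -/
noncomputable def au (ψ : Y →* G) (h : Function.Injective ψ) : 𝐍(ψ.range) →* MulAut Y :=
  (MulAut.congr (MonoidHom.ofInjective h).symm).toMonoidHom.comp (normalizerMonoidHom ψ.range)

variable {ψ : Y →* G} {h : Function.Injective ψ} {g : G} {c : Y}

theorem au_ap (hg : g ∈ 𝐍(ψ.range)) (a : Y) : ψ (au ψ h ⟨g, hg⟩ a) = g * ψ a * g⁻¹ :=
  MonoidHom.apply_ofInjective_symm h _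

theorem au_eq (hg : g ∈ 𝐍(ψ.range)) {a b : Y} : au ψ h ⟨g, hg⟩ a = b ↔ g * ψ a * g⁻¹ = ψ b := by
  rw [← au_ap (h := h) hg, h.eq_iff]

theorem au_fix (hg : g ∈ 𝐍(ψ.range)) {a : Y} : au ψ h ⟨g, hg⟩ a = a ↔ ψ a ∈ 𝐂[g] := by
  rw [au_eq, mem_cent1, mul_inv_eq_iff_eq_mul, eq_comm]

theorem au_conj (hg : g ∈ 𝐍(ψ.range)) : au ψ h ⟨g, hg⟩ = MulAut.conj c ↔ (ψ c)⁻¹ * g ∈ 𝐂(ψ.range) := by
  rw [MulEquiv.ext_iff, mem_cent]
  simp only [au_eq, MulAut.conj_apply, map_mul, map_inv]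
  constructor
  · rintro k _ ⟨a, rfl⟩
    rw [mul_assoc, mul_inv_eq_iff_eq_mul.1 (k a)]; group
  · intro k a
    have := k _ ⟨a, rfl⟩
    calc g * ψ a * g⁻¹ = ψ c * ((ψ c)⁻¹ * g * ψ a) * g⁻¹ := by group
      _ = _ := by rw [← this]; group

theorem au_one (hg : g ∈ 𝐍(ψ.range)) : au ψ h ⟨g, hg⟩ = 1 ↔ g ∈ 𝐂(ψ.range) := by
  simpa using au_conj (h := h) (c := 1) hg

theorem au_mem (c : Y) : au ψ h ⟨ψ c, le_norm _ ⟨c, rfl⟩⟩ = MulAut.conj c :=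
  (au_conj _).2 (by rw [inv_mul_cancel]; exact one_mem _)

theorem au_inn (hg : g ∈ 𝐍(ψ.range)) : au ψ h ⟨g, hg⟩ ∈ Inn Y ↔ g ∈ ψ.range ⊔ 𝐂(ψ.range) :=
  ⟨fun ⟨c, e⟩ => mul_inv_cancel_left (ψ c) g ▸ mul_mem_sup ⟨c, rfl⟩ ((au_conj hg).1 e.symm), fun e => by
    obtain ⟨_, ⟨c, rfl⟩, k, hk, rfl⟩ := (mem_sup_left_norm (cent_le_norm ψ.range)).1 e
    exact ⟨c, ((au_conj hg).2 (by rwa [inv_mul_cancel_left])).symm⟩⟩

end Cfsg.Lib.QJ
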