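import Cfsg.Agent.Lib.QJ.F4b
import Cfsg.Agent.Lib.RF4.Red
import Cfsg.Agent.Lib.QS.NpA

/-! # QJ (S1817): `²F₄(q)`, `q ≥ 8`, and the Tits group

Add imports `Lib.RF4.Red` (`exists_full`: `F : Full K Γ`, `F.gen = ⊤`, also for `K = ZMod 2`), `Lib.RF4.Inv`/`Cent`/`Fus`, `Lib.SF4.Bas`
(`CZ2`, `cent_x5`, `l5`), `S2128`, `Lib.QS.NpA` (`np_tits`: every automorphism of the Tits group is induced by `Γ = ²F₄(2)`).  Split the
file as you like.  In `Γ` (all `q ≥ 2`), `t = e (x5 1)`: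
* (a) every involution is conjugate to `e (x4 1)` or to `t` (`RF4.cl`, then `r`, `s`, the torus);
* (b) `C_Γ(t) ≤ N(e Z2) ⊓ C(e (x5 a))` (Bruhat as in `RF4.alt_x4`/`cent`: `C_Γ(t) ≤ B ∪ B s B`; `s`, `x1`, `l5`, `X1` centralise `U₅`);
* (c) all elements of `Z2` are conjugate into `Z`; `x5 1 * v ~ x5 1` for `v ∈ Z2` (`Z3_x5`).
`q ≥ 8`: `T1` by the torus (`w4_surj`), `|Out| = 2m + 1` odd (`c1_of_odd`, `mn_two`).  `In` by `.inr`: `p` = a prime divisor of `2 ^ ℓ - 1` where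
`ℓ` is the largest prime divisor of `2m + 1` (`ℓ ∣ p - 1`, so `p > ℓ`), `p ∣ q - 1`, the torus is not cyclic.  `PV p t V h S` with `V = e Z2`,
`h = F.h (l5 μ)`, `μ` of order `p` (all weights of `l5 μ` except that on `U₅` are `≠ 1`), `S = e X1 ≤ Pg p C(t)` (`cm_mem_Pg` for the root
elements, `x5` is a commutator of them).  `cS`: `y` centralises `x4 1`, `x6 1`, so `y ∈ e R` (`CZ2`), and `Z(X1) ≤ Z3`.
Tits group `Y = Γ'` (index 2): `p = 3`, `|Out| = 2`, `h = s * e (x1 1)` has order 3, `O = R ⊓ X1` (order `2⁹`), `S = [O, h]` has order `2⁷`,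
contains `x3 1, x4 1, x5 1, x6 1, x7 1`, and `C_O(S) = Z3` (checked by computer).  `Zc (U ⊓ Y) = Z`; `c1`: an element of `Γ` that
centralises `U ⊓ Y` lies in `Z`.  The classes of `x4 1`, `x5 1` do not split (their centralisers in `U` are not inside `Y`). -/

set_option autoImplicit false
set_option linter.unusedSectionVars false

namespace Cfsg.Lib.QJ

open Subgroup Cfsg.Lib.BG Cfsg.Lib.Comp Cfsg.Lib.QS
open scoped Cfsg.Lib.Transfer commutatorElement MatrixGroups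

theorem f4_prime {n : ℕ} (hn : 2 ≤ n) : ∃ p, p.Prime ∧ p ≠ 2 ∧ p ∣ 2 ^ n - 1 ∧ ¬ p ∣ n := by
  have k : ∀ {n : ℕ}, 2 ≤ n → 2 ^ n - 1 ≠ 1 ∧ 2 ^ n - 1 ≠ 0 := fun h => by
    have := Nat.pow_le_pow_right two_pos h
    omega
  have ne : (2 ^ n - 1).primeFactors.Nonempty := Nat.nonempty_primeFactors.2 (by have := k hn; omega)
  obtain ⟨pp, pd, -⟩ := Nat.mem_primeFactors.1 (Finset.max'_mem _ ne)
  have o : ∀ {n p : ℕ}, 2 ≤ n → p ∣ 2 ^ n - 1 → p ≠ 2 := by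
    rintro n _ h d rfl
    exact (Nat.Even.sub_odd Nat.one_le_two_pow ((Nat.even_pow' (by omega)).2 even_two) odd_one).not_two_dvd_nat d
  refine ⟨_, pp, o hn pd, pd, fun d => ?_⟩
  generalize hp : Finset.max' _ ne = p at *
  obtain ⟨r, rp, rd⟩ := Nat.exists_prime_and_dvd (k pp.two_le).1
  have := Fact.mk rp
  have := Fact.mk pp
  have h1 : r ≤ p := hp ▸ Finset.le_max' _ _ (Nat.mem_primeFactors.2 ⟨rp, rd.trans (Nat.pow_sub_one_dvd_pow_sub_one 2 d), (k hn).2⟩)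
  have h2 : (2 : ZMod r) ≠ 0 := fun e => o pp.two_le rd ((Nat.prime_dvd_prime_iff_eq rp Nat.prime_two).1
    ((ZMod.natCast_eq_zero_iff 2 r).1 (by exact_mod_cast e)))
  have h3 : orderOf (2 : ZMod r) = p := orderOf_eq_prime (by
    have := (ZMod.natCast_eq_zero_iff _ r).2 rd
    rwa [Nat.cast_sub Nat.one_le_two_pow, sub_eq_zero, Nat.cast_pow, Nat.cast_one] at this) fun e =>
      one_ne_zero (α := ZMod r) (by linear_combination e)
  have := Nat.le_of_dvd (by have := rp.two_le; omega) (h3 ▸ ZMod.orderOf_dvd_card_sub_one h2)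
  have := rp.two_le
  omega

section
open RF4 RF4.V SF4

variable {K : Type*} [Field K] [RF4.Tw K] [Finite K] {Γ : Type} [Group Γ] [Finite Γ] {F : Full K Γ} {p : ℕ}

set_option maxHeartbeats 1000000 in
theorem f4_big (hF : F.gen = ⊤) (hS : Syl 2 F.e.range ⊤) (ho : Odd (Nat.card (Out Γ))) (pp : p.Prime) (p2 : p ≠ 2)
    (po : ¬ p ∣ Nat.card (Out Γ)) {μ : Kˣ} (hμ : orderOf μ = p) : Mn Γ := by
  have D : RD F (.id Γ) := ⟨hF, hS, fun _ _ => id, ⟨fun _ _ _ => ⟨_, rfl⟩⟩, fun _ _ => ⟨_, rfl⟩, fun _ => .inl ⟨_, rfl⟩⟩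
  have m1 : μ ≠ 1 := fun e => pp.one_lt.ne (by rw [← hμ, e, orderOf_one])
  have mp : μ ^ p = 1 := hμ ▸ pow_orderOf_eq_one μ
  have hi : ∀ {l}, F.h l = 1 → l = 1 := fun e => (F.eh_one (v := 1) (by rw [e, map_one, one_mul])).2
  refine D.mn (fun α h _ => c1_of_odd ho α h) (fun h => ho.not_two_dvd_nat ((by decide : 2 ∣ 4).trans h)) pp p2 po
    ⟨F.h (μ, 1), F.h (1, μ), by rw [← map_pow, Prod.pow_mk, mp, one_pow]; exact map_one _,
      by rw [← map_pow, Prod.pow_mk, mp, one_pow]; exact map_one _, (Commute.all _ _).map _,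
      fun e => m1 (congrArg Prod.snd (hi e)), fun ⟨n, e⟩ => m1 ?_⟩ fun t ht => ?_
  · have : μ * (1 ^ n)⁻¹ = 1 := congrArg Prod.fst (hi (l := (μ, 1) * ((1, μ) ^ n)⁻¹) (by
      rw [map_mul, map_inv, map_zpow, mul_inv_eq_one]; exact e.symm))
    simpa using this
  obtain ⟨l, hl⟩ : ∃ l, l5 μ = l := ⟨_, rfl⟩
  have a0 : (l.1 : K) * l.2 ^ 2 = 1 := by rw [← hl]; simp [l5]
  have a1 := congrArg σ a0
  have a2 : (l.2 : K) ≠ 1 := hl ▸ mt Units.val_eq_one.1 m1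
  obtain ⟨a3, a4, -⟩ := wts a2
  simp only [map_mul, map_pow, map_one] at a1
  have hc : F.h l ∈ 𝐂[t] := mc.2 (cjf.1 (by rw [show t = _ from ht, F.he]; congr 1; vp))
  have hp : F.h l ^ p = 1 := by
    rw [← map_pow, ← hl, l5, Prod.pow_mk, inv_pow, ← pow_mul, mul_comm, pow_mul, mp, one_pow, inv_one]; exact map_one _
  set N := ((Pg p 𝐂[t]).map (.id Γ)).comap F.e
  have k : ∀ w ∈ X1, w⁻¹ * tor l w ∈ N := fun w hw => by
    rw [mem_comap, map_mul, map_inv, ← F.he]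
    exact D.pg hc hp (ht ▸ F.ec (mem_cent1.1 (cent_x5.ge hw)))
  have k1 : ∀ (x : K → V K) (w : K), w ≠ 1 → (∀ a, x a ∈ X1 ∧ (x a)⁻¹ * tor l (x a) = x ((w + 1) * a)) → x 1 ∈ N :=
    fun x w w1 h => by
      obtain ⟨a, e⟩ := ex_mul (a := w + 1) (by grind) 1
      exact e ▸ (h a).2 ▸ k _ (h a).1
  refine ⟨_, _, _, D.pv ht hc hp (fun v hv c => ?_) (N := N) (fun _ => id) (k1 x3 (tor l (x3 1)).a3 ?_ fun a => ?_)
    (k1 x4 (tor l (x4 1)).c4 ?_ fun a => ?_) (k1 x6 (tor l (x6 1)).c6 ?_ fun a => ?_) (k1 x7 (tor l (x7 1)).a7 ?_ fun a => ?_)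
    (k (x2 1 * x8 1) ?_) ?_ ?_⟩
  · have := F.inj ((F.he l v).symm.trans (cjf.2 c))
    clear * - this hv a0 a1 a2
    dst v hv; vs at *; grind
  all_goals clear * - a0 a1 a2 a3 a4; vp

set_option maxHeartbeats 1000000 in
theorem f4_M {M : Subgroup (V K)} (k : ∀ w ∈ R, w ∈ X1 → w⁻¹ * ρs (x1 1 * w * (x1 1)⁻¹) ∈ M) :
    x3 1 ∈ M ∧ x4 1 ∈ M ∧ x6 1 ∈ M ∧ x7 1 ∈ M ∧ x2 1 * x8 1 ∈ M := by
  have m4 : x4 1 ∈ M := by convert k (x6 1) (by vs) (by vs) using 1; vp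
  have m6 : x6 1 ∈ M := by convert mul_mem m4 (k (x4 1) (by vs) (by vs)) using 1; vp
  have u2 := k (x2 1) (by vs) (by vs)
  have u8 := k (x8 1) (by vs) (by vs)
  rw [show (x2 1)⁻¹ * ρs (x1 1 * x2 1 * (x1 1)⁻¹) = x2 (1 : K) * x8 1 by vp] at u2
  rw [show (x8 1)⁻¹ * ρs (x1 1 * x8 1 * (x1 1)⁻¹) = x2 (1 : K) * x3 1 * y4 1 * y6 1 * x7 1 by vp] at u8
  have m5 : x5 1 ∈ M := by convert mul_mem (mul_mem (mul_mem u2 u8) (inv_mem u2)) (inv_mem u8) using 1; vp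
  have m3 : x3 1 ∈ M := by convert mul_mem (k (x7 1) (by vs) (by vs)) m5 using 1; vp
  have m7 : x7 1 ∈ M := by convert mul_mem m3 (k (x3 1) (by vs) (by vs)) using 1; vp
  exact ⟨m3, m4, m6, m7, u2⟩

set_option maxHeartbeats 1000000 in
theorem f4_two {N : Subgroup Γ} [N.Normal] (hF : F.gen = ⊤) (hS : Syl 2 F.e.range ⊤) (hq : ∀ a : K, a = 0 ∨ a = 1)
    (hi : N.index = 2) (inv : ∀ l, l * l = 1 → l ∈ N) (ind : ∀ α, α ∈ (MulAut.conjNormal (H := N)).range) : Mn N := by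
  have iv : ∀ v : V K, v * v = 1 → F.e v ∈ N := fun v h => inv _ (by rw [← map_mul, h, map_one])
  have y4n : F.e (y4 1) ∉ N := fun h4 => by
    have h6 : F.e (y6 1) ∈ N := by
      rw [show y6 (1 : K) = ρs (y4 1) by vs, ← F.se _ (by vs)]; exact Normal.conj_mem inferInstance _ h4 _
    have h2 : F.e (y2 1) ∈ N := by
      rw [show y2 (1 : K) = ρr (y6 1) by vs, ← F.re _ (by vs)]; exact Normal.conj_mem inferInstance _ h6 _
    have h8 : F.e (y8 1) ∈ N := by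
      rw [show y8 (1 : K) = ρs (y2 1) by vs, ← F.se _ (by vs)]; exact Normal.conj_mem inferInstance _ h2 _
    have k : ∀ y : K → V K, y 0 = 1 → F.e (y 1) ∈ N → ∀ a, F.e (y a) ∈ N := fun y h0 h1 a => by
      rcases hq a with rfl | rfl
      exacts [by rw [h0, map_one]; exact one_mem _, h1]
    have : N = ⊤ := eq_top_iff.2 (hF.ge.trans (F.gen_le (fun v => ?_) (fun l => ?_) (inv _ F.rr) (inv _ F.ss)))
    · simp [this] at hi
    · rw [show v = x1 v.a1 * y2 v.b2 * x2 v.c2 * x3 v.a3 * y4 v.b4 * x4 v.c4 * x5 v.a5 * y6 v.b6 * x6 v.c6 * x7 v.a7 *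
        y8 v.b8 * x8 v.c8 by vs]
      simp only [map_mul]
      exact mul_mem (mul_mem (mul_mem (mul_mem (mul_mem (mul_mem (mul_mem (mul_mem (mul_mem (mul_mem (mul_mem
        (iv _ (by vp)) (k y2 rfl h2 _)) (iv _ (by vp))) (iv _ (by vp))) (k y4 rfl h4 _)) (iv _ (by vp))) (iv _ (by vp)))
        (k y6 rfl h6 _)) (iv _ (by vp))) (iv _ (by vp))) (k y8 rfl h8 _)) (iv _ (by vp))
    · rw [show l = 1 from Prod.ext (Units.ext ((hq _).resolve_left l.1.ne_zero))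
        (Units.ext ((hq _).resolve_left l.2.ne_zero)), map_one]
      exact one_mem _
  have D : RD F N.subtype := ⟨hF, hS, subtype_injective _, by rwa [range_subtype], by rwa [range_subtype], fun g => by
    rw [range_subtype, mul_mem_iff_of_index_two hi]; tauto⟩
  have ho : Nat.card (Out N) ∣ 2 := by
    let φ : Γ →* Out N := (QuotientGroup.mk' _).comp (MulAut.conjNormal (H := N))
    have h1 : φ.range = ⊤ := MonoidHom.range_eq_top.2 ((QuotientGroup.mk'_surjective _).comp fun α => ind α)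
    rw [← card_top, ← h1, ← index_ker, ← hi]
    exact index_dvd_of_le fun g hg => (QuotientGroup.eq_one_iff _).2 ⟨⟨g, hg⟩, MulEquiv.ext fun y => rfl⟩
  have x2' : F.e (x1 1) * F.e (x1 1) = 1 := by rw [← map_mul, show x1 (1 : K) * x1 1 = 1 by vp, map_one]
  obtain ⟨h, hh⟩ : ∃ h : N, (h : Γ) = F.s * F.e (x1 1) := ⟨⟨_, mul_mem (inv _ F.ss) (inv _ x2')⟩, rfl⟩
  have hp : h ^ 3 = 1 := Subtype.ext (by
    rw [coe_pow, hh, coe_one]
    calc _ = F.s * F.e (x1 1) * F.s * F.e (x1 1) * F.s * F.e (x1 1) := by simp only [pow_succ, pow_zero, one_mul, mul_assoc]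
      _ = _ := by rw [F.s3, mul_assoc _ (F.e _) (F.e _), x2', mul_one, mul_assoc _ F.s F.s, F.ss, mul_one, x2'])
  have he : ∀ v ∈ R, (h : Γ) * F.e v * (h : Γ)⁻¹ = F.e (ρs (x1 1 * v * (x1 1)⁻¹)) := fun v hv => by
    rw [← F.se (_ * v * _) (aut_R (MulAut.conj (x1 1)) hv), ← F.ej, hh]; group
  have h5 : Commute (h : Γ) (F.e (x5 1)) := hh ▸ (F.js5 1).mul_left (F.ec (by vp))
  have fp : ∀ v ∈ Z2, Commute (h : Γ) (F.e v) → v = 1 := fun v hv c => by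
    have := F.inj ((he v hv.1).symm.trans (cjf.2 c))
    clear * - this hv
    dst v hv; vs at *; grind
  refine D.mn (p := 3) (fun α _ e => let ⟨g, hg⟩ := ind α; D.c1 (g := g) α (fun y => hg ▸ MulAut.conjNormal_apply g y) e)
    (fun h => absurd (h.trans ho) (by decide)) Nat.prime_three (by decide) (fun h => absurd (h.trans ho) (by decide)) ?_
    fun t ht => ?_
  · obtain ⟨c, hc⟩ : ∃ c, F.r * F.s * F.r = c := ⟨_, rfl⟩
    have c1 : c * F.e (x1 1) * c⁻¹ = F.e (x5 1) := by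
      rw [show x5 (1 : K) = ρr (ρs (ρr (x1 1))) by vs, ← F.re _ (by vs), ← F.se _ (by vs), ← F.re _ (by vs), ← hc]; group
    have c5 : c * F.e (x5 1) * c⁻¹ = F.e (x1 1) := by
      rw [show x1 (1 : K) = ρr (ρs (ρr (x5 1))) by vs, ← F.re _ (by vs), ← F.se _ (by vs), ← F.re _ (by vs), ← hc]; group
    have cs : Commute F.s (c * F.s * c⁻¹) := by
      simpa [← hc, Commute, SemiconjBy, F.r_inv, F.s_inv, pow_succ, mul_assoc] using F.braid
    have h1 : h ≠ 1 := fun e => by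
      have := fp (x4 1) (by vs) (by rw [e]; exact .one_left _)
      revert this; vs; simp
    refine ⟨MulAut.conjNormal c h, h, by rw [← map_pow, hp, map_one], hp, Subtype.ext ?_, h1, fun ⟨n, e⟩ => h1 ?_⟩
    · change Commute (c * h * c⁻¹) h
      rw [hh, ← conj_mul, c1]
      exact (cs.symm.mul_right (c5 ▸ cjc (F.js5 1) c)).mul_left ((F.js5 1).symm.mul_right (F.ec (by vp)))
    · have := h5.zpow_left n
      rw [show (h : Γ) ^ n = c * h * c⁻¹ from congrArg Subtype.val e, ← c1] at this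
      have h2 : Commute F.s (F.e (x1 1)) := mc.1 ((mul_mem_cancel_right (mc.2 (.refl _))).1
        (mc.2 (hh ▸ this.of_map (f := MulAut.conj c) (MulEquiv.injective _))))
      have h3 := F.s3
      rw [h2.eq, mul_assoc, F.ss, mul_one, ← h2.eq, mul_assoc, x2', mul_one] at h3
      exact Subtype.ext (by rw [hh, ← h3, x2', coe_one])
  set M := ((Pg 3 𝐂[t]).map N.subtype).comap F.e
  have k : ∀ w ∈ R, w ∈ X1 → w⁻¹ * ρs (x1 1 * w * (x1 1)⁻¹) ∈ M := fun w hr hw => by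
    rw [mem_comap, map_mul, map_inv, ← he w hr]
    exact D.pg (mc.2 (D.cmt.1 (ht ▸ h5))) hp (ht ▸ F.ec (mem_cent1.1 (cent_x5.ge hw)))
  obtain ⟨m3, m4, m6, m7, u2⟩ := f4_M k
  exact ⟨_, _, _, D.pv ht (mc.2 (D.cmt.1 (ht ▸ h5))) hp fp (N := M) (fun _ => id) m3 m4 m6 m7 u2 (by vp) (by vp)⟩

end

variable {Y : Type*} [Group Y]

theorem mn_2F4 (h : Lie.Iso2F4 Y) : MnE Y := by
  obtain ⟨K, _, _, m, hm, hK, ⟨e⟩⟩ := h
  obtain ⟨_, F, hF, ho, -⟩ := RF4.exists_full hK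
  obtain ⟨p, pp, p2, pd, pn⟩ := f4_prime (n := 2 * m + 1) (by omega)
  have := Fact.mk pp
  obtain ⟨μ, hμ⟩ := exists_prime_orderOf_dvd_card' (G := Kˣ) p (by rwa [Nat.card_units, Nat.card_eq_fintype_card, hK])
  have h1 := Cfsg.Agent.S2128.result hm hK
  exact (f4_big hF (Syl.mk' le_top F.pS (by rw [relIndex_top_right]; exact ho.not_two_dvd_nat))
    (h1 ▸ odd_two_mul_add_one m) pp p2 (h1 ▸ pn) hμ).e.congr e.symm

theorem mn_tits (h : Lie.IsoTits Y) : MnE Y := by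
  obtain ⟨e⟩ := h
  obtain ⟨_, F, hF, ho, -⟩ : ∃ _ : RF4.Tw (ZMod 2), ∃ F : RF4.Full (ZMod 2) Tits.Γ, F.gen = ⊤ ∧ Odd F.e.range.index ∧ _ :=
    RF4.exists_full (m := 0) (ZMod.card 2)
  exact (f4_two hF (Syl.mk' le_top F.pS (by rw [relIndex_top_right]; exact ho.not_two_dvd_nat)) (by decide) Tits.index_TT
    (fun _ => Tits.mem_TT_of_sq) NT.ind).e.congr e.symm

end Cfsg.Lib.QJ
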