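import Cfsg.Agent.Lib.SF4.Bas

/-! # QJ (S1817): the centraliser of a non-central involution of the large Ree groups -/

set_option autoImplicit false

namespace Cfsg.Lib.RF4.Full

open Subgroup Cfsg.Lib.BG Cfsg.Lib.Transfer Cfsg.Lib.Hex Cfsg.Lib.RF4.V Cfsg.Lib.SF4

variable {K : Type*} [Field K] [Tw K] {G : Type*} [Group G] (F : Full K G)

theorem jq0 {z : V K} (hz : z ∈ Z3) (h : Commute (F.e z) (F.r * F.e (x8 1) * F.r⁻¹)) : z.a5 = 0 := by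
  have h1 := cjc h F.r
  rw [F.re _ (by revert hz; vs; tauto), show F.r * (F.r * F.e (x8 1) * F.r⁻¹) * F.r⁻¹ = F.e (x8 1) by
    rw [F.r_inv, ← mul_assoc, ← mul_assoc, F.rr, one_mul, mul_assoc, F.rr, mul_one]] at h1
  have := F.ce h1
  clear h h1
  dst z hz; vs at *; grind

theorem jq1 {z : V K} (hz : z ∈ Z3) (h : Commute (F.e z) (F.s * (F.r * F.e (x8 1) * F.r⁻¹) * F.s⁻¹)) : z.a5 = 0 := by
  have h1 := cjc h F.s
  rw [F.se _ (by revert hz; vs; tauto), show ∀ x, F.s * (F.s * x * F.s⁻¹) * F.s⁻¹ = x from fun x => by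
    rw [F.s_inv, ← mul_assoc, ← mul_assoc, F.ss, one_mul, mul_assoc, F.ss, mul_one]] at h1
  have := F.jq0 (by clear * - hz; dst z hz; vp) h1
  clear h h1
  dst z hz; vs at *; grind

theorem jalt {P : G → Prop} (p2 : P (F.e (x2 1))) (p4 : P (F.e (x4 1))) (p6 : P (F.e (x6 1))) (p8 : P (F.e (x8 1)))
    (i : Bool) {k : ℕ} (hk : k ≤ 8) : alt F.sf i k = 1 ∨ alt F.sf i k = F.s ∨
      P (MulAut.conj (alt F.sf i k) (MulAut.conj F.r (F.e (x8 1)))) ∨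
      P (MulAut.conj (alt F.sf i k) (MulAut.conj F.s (MulAut.conj F.r (F.e (x8 1))))) := by
  obtain ⟨R, hR⟩ : ∃ R, MulAut.conj F.r = R := ⟨_, rfl⟩
  obtain ⟨S, hS⟩ : ∃ R, MulAut.conj F.s = R := ⟨_, rfl⟩
  have RR : ∀ x, R (R x) = x := fun x => by rw [← MulAut.mul_apply, ← hR, ← map_mul, F.rr, map_one, MulAut.one_apply]
  have SS : ∀ x, S (S x) = x := fun x => by rw [← MulAut.mul_apply, ← hS, ← map_mul, F.ss, map_one, MulAut.one_apply]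
  have r4 : R (F.e (x4 1)) = F.e (x4 1) := hR ▸ (F.re _ (by vs)).trans (by congr 1; vs)
  have s4 : S (F.e (x4 1)) = F.e (x6 1) := hS ▸ (F.se _ (by vs)).trans (by congr 1; vs)
  have s6 : S (F.e (x6 1)) = F.e (x4 1) := hS ▸ (F.se _ (by vs)).trans (by congr 1; vs)
  have r6 : R (F.e (x6 1)) = F.e (x2 1) := hR ▸ (F.re _ (by vs)).trans (by congr 1; vs)
  have r2 : R (F.e (x2 1)) = F.e (x6 1) := hR ▸ (F.re _ (by vs)).trans (by congr 1; vs)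
  have s2 : S (F.e (x2 1)) = F.e (x8 1) := hS ▸ (F.se _ (by vs)).trans (by congr 1; vs)
  have s8 : S (F.e (x8 1)) = F.e (x2 1) := hS ▸ (F.se _ (by vs)).trans (by congr 1; vs)
  interval_cases k <;> cases i <;> simp only [alt, sf, cond_true, cond_false, Bool.not_true, Bool.not_false, mul_one,
    true_or, or_true, map_mul, MulAut.mul_apply, hR, hS, RR, SS, r4, s4, s6, r6, r2, s2, s8, p2, p4, p6, p8]

theorem jB {b : G} (hb : b ∈ F.e.range ⊔ F.h.range) : ∃ z ∈ Z3, z.a5 ≠ 0 ∧ b * F.e (x5 1) * b⁻¹ = F.e z := by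
  obtain ⟨_, ⟨v, rfl⟩, _, ⟨l, rfl⟩, rfl⟩ := F.r2.mem_B.1 hb
  refine ⟨v * tor l (x5 1) * v⁻¹, by vp, ?_, by rw [← F.ej, ← F.he]; group⟩
  have h3 := l.1.ne_zero
  have h4 := l.2.ne_zero
  have h5 := mt σ_eq_zero.1 h3
  have h6 := mt σ_eq_zero.1 h4
  have : (l.1 : K) * σ (l.1 : K) * l.2 ^ 2 * σ (l.2 : K) ^ 2 ≠ 0 := by simp [*]
  vs; grind

theorem jcell {g : G} (hg : g ∈ F.gen) (h : Commute g (F.e (x5 1))) :
    ∃ b ∈ F.e.range ⊔ F.h.range, g = b ∨ ∃ a, g = b * (F.s * F.e (x1 a)) := by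
  obtain ⟨b, hb, b', hb', i, k, hk, rfl⟩ := F.r2.cell hg
  obtain ⟨z, hz, z0, e⟩ := F.jB hb'
  obtain ⟨z', hz', -, e'⟩ := F.jB (inv_mem hb)
  have e1 : F.e z' = MulAut.conj (alt F.sf i k) (F.e z) := by
    rw [← e, ← e', ← cjf.2 h, MulAut.conj_apply]
    nth_rw 2 [cjf.2 h]
    group
  have k0 : ∀ x, Commute (F.e z') (MulAut.conj (alt F.sf i k) x) → Commute (F.e z) x := fun x c => by
    rw [e1] at c
    exact c.of_map (MulEquiv.injective _)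
  rcases F.jalt (P := Commute (F.e z')) (F.ec (by clear * - hz'; dst z' hz'; vp)) (F.ec (by clear * - hz'; dst z' hz'; vp))
    (F.ec (by clear * - hz'; dst z' hz'; vp)) (F.ec (by clear * - hz'; dst z' hz'; vp)) i hk with c | c | c | c
  · exact ⟨_, mul_mem hb hb', .inl (by rw [c, mul_one])⟩
  · obtain ⟨_, ⟨w, rfl⟩, _, ⟨l, rfl⟩, e⟩ := F.r2.mem_B.1 (inv_mem hb')
    refine ⟨_, mul_mem (mul_mem hb (mem_sup_right ⟨ws l⁻¹, rfl⟩)) (mem_sup_left ⟨ρs (w⁻¹ * (x1 w⁻¹.a1)⁻¹), rfl⟩),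
      .inr ⟨w⁻¹.a1, ?_⟩⟩
    rw [c, inv_eq_iff_eq_inv.1 e, ← F.sh, ← F.se _ (dec_R _), map_mul, map_inv, map_inv, map_inv]
    group
  · exact absurd (F.jq0 hz (k0 _ c)) z0
  · exact absurd (F.jq1 hz (k0 _ c)) z0

theorem js5 (a : K) : Commute F.s (F.e (x5 a)) := cjf.1 ((F.se _ (by vs)).trans (congrArg _ (by vs)))

theorem jle {M : Subgroup G} (h1 : ∀ v l, v * tor l (x5 1) * v⁻¹ = x5 1 → F.e v * F.h l ∈ M) (h2 : F.s ∈ M) {g : G}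
    (hg : g ∈ F.gen) (h : Commute g (F.e (x5 1))) : g ∈ M := by
  have k : ∀ b ∈ F.e.range ⊔ F.h.range, Commute b (F.e (x5 1)) → b ∈ M := fun b hb c => by
    obtain ⟨_, ⟨v, rfl⟩, _, ⟨l, rfl⟩, rfl⟩ := F.r2.mem_B.1 hb
    exact h1 v l (F.inj (by rw [← F.ej, ← F.he, ← cjf.2 c]; nth_rw 1 [cjf.2 c]; group))
  obtain ⟨b, hb, rfl | ⟨a, rfl⟩⟩ := F.jcell hg h
  · exact k _ hb h
  have c : Commute (F.e (x1 a)) (F.e (x5 1)) := F.ec (by vp)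
  exact mul_mem (k _ hb (mc.1 ((mul_mem_cancel_right (mc.2 ((F.js5 1).mul_left c))).1 (mc.2 h))))
    (mul_mem h2 (k _ (mem_sup_left ⟨_, rfl⟩) c))

/-- the centraliser of `x₅(1)` centralises `U₅` -/
theorem jc5 {g : G} (hg : g ∈ F.gen) (h : Commute g (F.e (x5 1))) (a : K) : Commute g (F.e (x5 a)) := by
  refine mc.1 (F.jle (fun v l e => mc.2 (cjf.1 ?_)) (mc.2 (F.js5 a)) hg h)
  obtain ⟨w, hw⟩ : ∃ w : K, ∀ a, tor l (x5 a) = x5 (w * a) :=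
    ⟨(l.1 : K) * σ (l.1 : K) * l.2 ^ 2 * σ (l.2 : K) ^ 2, fun a => by vs⟩
  obtain rfl : w = 1 := by
    have := congrArg V.a5 e
    rw [hw] at this
    clear * - this
    vs at this; grind
  simp only [one_mul] at hw
  rw [hw] at e
  have hv : v ∈ X1 := cent_x5.le (mem_cent1.2 (mul_inv_eq_iff_eq_mul.1 e))
  rw [show F.e v * F.h l * F.e (x5 a) * (F.e v * F.h l)⁻¹ = F.e v * (F.h l * F.e (x5 a) * (F.h l)⁻¹) * (F.e v)⁻¹ by group,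
    F.he, hw, F.ej]
  congr 1
  clear * - hv
  dst v hv; vp

/-- the centraliser of `x₅(1)` normalises `Z₂` -/
theorem jn5 [Finite G] {g : G} (hg : g ∈ F.gen) (h : Commute g (F.e (x5 1))) : g ∈ 𝐍(Z2.map F.e) := by
  refine F.jle (fun v l _ => mul_mem ?_ ?_) ?_ hg h <;> refine mem_normalizer_of_conj_le (conj_le_iff.2 ?_) <;>
    rintro _ ⟨z, hz, rfl⟩
  · exact ⟨_, norm_Z2 v hz, (F.ej _ _).symm⟩
  · exact ⟨_, aut_Z2 (tor l) hz, (F.he _ _).symm⟩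
  · replace hz : z ∈ Z2 := hz
    exact ⟨ρs z, show _ ∈ Z2 by dst z hz; vp, (F.se _ hz.1).symm⟩

theorem jz2 {z : V K} (hz : z ∈ Z2) : ∃ g a, g * F.e z * g⁻¹ = F.e (x4 a) := by
  by_cases hZ : z ∈ Z
  · exact ⟨1, z.c4, by rw [← eq_x4 hZ]; simp⟩
  obtain ⟨t, e⟩ := x1_Z2 hz (y' := x6 z.c6) (by vs) hZ rfl
  exact ⟨F.s * F.e (x1 t), z.c6, by
    rw [show x4 z.c6 = ρs (x6 z.c6) by vs, ← F.se _ (by vs), ← e, ← F.ej]; group⟩

end Cfsg.Lib.RF4.Full
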