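import Cfsg.Agent.Lib.QJ.Small
import Cfsg.Agent.Lib.QJ.F4a

/-! # QJ (S1817): normal subgroups of index at most two in the large Ree groups -/

set_option autoImplicit false
set_option linter.unusedSectionVars false

namespace Cfsg.Lib.QJ

open Subgroup Cfsg.Lib.BG Cfsg.Lib.Transfer Cfsg.Lib.RF4 Cfsg.Lib.RF4.V Cfsg.Lib.SF4

variable {K : Type*} [Field K] [Tw K] [Finite K] {Γ Y : Type*} [Group Γ] [Finite Γ] [Group Y] [Finite Y]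

theorem f4_Z3 {v : V K} (hv : v ∈ R) (h5 : v * x5 1 = x5 1 * v) (h3 : v * x3 1 = x3 1 * v) (h7 : v * x7 1 = x7 1 * v) :
    v ∈ Xs ∧ v.c2 = 0 ∧ v.c8 = 0 := by
  dst v hv; vs at *; grind

/-- the data -/
structure RD (F : Full K Γ) (ι : Y →* Γ) : Prop where
  gen : F.gen = ⊤
  syl : Syl 2 F.e.range ⊤
  inj : Function.Injective ι
  nor : ι.range.Normal
  inv : ∀ l, l * l = 1 → l ∈ ι.range
  idx : ∀ g, g ∈ ι.range ∨ F.e (y4 1) * g ∈ ι.range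

namespace RD

variable {F : Full K Γ} {ι : Y →* Γ} (D : RD F ι) {a b t h : Y} {g : Γ} {p : ℕ}
include D

theorem mg (g : Γ) : g ∈ F.gen := D.gen ▸ mem_top g

theorem cmt : Commute (ι a) (ι b) ↔ Commute a b := ⟨fun c => c.of_map D.inj, fun c => c.map ι⟩

theorem ex {v : V K} (h : v * v = 1) : ∃ a, ι a = F.e v := D.inv _ (by rw [← map_mul, h, map_one])

theorem cj (e : g * ι a * g⁻¹ = ι b) (c : Commute (F.e (y4 1)) (ι b)) : IsConj a b := by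
  rcases D.idx g with ⟨y, rfl⟩ | ⟨y, hy⟩
  · exact isConj_iff.2 ⟨y, D.inj (by simpa using e)⟩
  · exact isConj_iff.2 ⟨y, D.inj (by rw [map_mul, map_mul, map_inv, hy, ← cjf.2 c, ← e]; group)⟩

theorem sylU : Syl 2 (F.e.range.comap ι) ⊤ := by
  refine (Hall.map_iff D.inj).1 ?_
  rw [map_comap_eq, ← MonoidHom.range_eq_map, inf_comm]
  exact D.syl.inf le_top (by have := D.nor; exact le_normalizer_of_normal)

theorem cU (h : ∀ w, F.e w ∈ ι.range → Commute g (F.e w)) : ∃ a, g = F.e (x4 a) := by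
  obtain ⟨v, hv, rfl⟩ := F.CZ2 ⟨D.mg g, mc.2 (h _ (D.ex (by vp)))⟩ (h _ (D.ex (by vp)))
  have k : ∀ w, w * w = 1 → v * w = w * v := fun w e => F.ce (h w (D.ex e))
  have h0 := f4_Z3 hv (k _ (by vp)) (k _ (by vp)) (k _ (by vp))
  have h1 := k (x1 1) (by vp)
  have h2 := k (x2 1) (by vp)
  have h8 := k (x8 1) (by vp)
  refine ⟨v.c4, congrArg _ (eq_x4 ?_)⟩
  rcases D.idx (F.e (y2 1)) with c | c
  · have := F.ce (h _ c)
    clear * - h0 h1 h2 h8 this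
    dst v h0; vs at *; grind
  · have := F.ce (h _ (map_mul F.e _ _ ▸ c))
    clear * - h0 h1 h2 h8 this
    dst v h0; vs at *; grind

theorem cU' (h : a ∈ 𝐂(F.e.range.comap ι)) : ∃ c, ι a = F.e (x4 c) := D.cU fun w ⟨k, e⟩ =>
  e ▸ D.cmt.2 (mem_cent.1 h k ⟨w, e.symm⟩).symm

theorem tc4 {c : K} (e : g * ι a * g⁻¹ = F.e (x4 c)) : Tc a := by
  obtain ⟨z, hz⟩ := D.ex (v := x4 c) (by vp)
  refine (tc_of D.sylU (c := z) (mem_cent.2 fun k ⟨w, hw⟩ => D.cmt.1 ?_)).conj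
    (D.cj (e.trans hz.symm) (hz ▸ F.ec (by vp))).symm
  rw [hz, ← hw]
  exact F.ec (Z_comm (x4_mem c) w)

theorem t1 : T1 (F.e.range.comap ι) := by
  refine t1_of_conj D.sylU fun a ha b hb a1 b1 => ?_
  have k : ∀ {a c}, a ≠ 1 → ι a = F.e (x4 c) → c ≠ 0 := fun a1 e c0 =>
    a1 (D.inj (by rw [e, c0, map_one]; exact map_one F.e))
  obtain ⟨c, hc⟩ := D.cU' ha.2.1
  obtain ⟨d, hd⟩ := D.cU' hb.2.1
  obtain ⟨l, hl⟩ := w4_surj (div_ne_zero (k b1 hd) (k a1 hc))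
  exact D.cj (g := F.h l) (by rw [hc, hd, F.he, tor_w4, hl, div_mul_cancel₀ _ (k a1 hc)]) (hd ▸ F.ec (by vp))

theorem nab : ¬ F.e.range.comap ι ≤ 𝐂(F.e.range.comap ι) := fun h => by
  obtain ⟨a, e⟩ := D.ex (v := x5 1) (by vp)
  obtain ⟨c, hc⟩ := D.cU' (h (show a ∈ _ from ⟨_, e.symm⟩))
  have := F.inj (e.symm.trans hc)
  revert this; vs; simp

theorem c1 (α : MulAut Y) (e : ∀ y, ι (α y) = g * ι y * g⁻¹) (h : ∀ x ∈ F.e.range.comap ι, α x = x) : α ∈ Inn Y := by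
  obtain ⟨c, rfl⟩ := D.cU (g := g) fun w ⟨k, hk⟩ => cjf.1 (by rw [← hk, ← e, h k ⟨w, hk.symm⟩])
  obtain ⟨z, hz⟩ := D.ex (v := x4 c) (by vp)
  exact ⟨z, MulEquiv.ext fun y => D.inj (by rw [e, ← hz]; simp)⟩

theorem pg (hc : h ∈ 𝐂[t]) (hp : h ^ p = 1) (c : Commute g (ι t)) :
    g⁻¹ * (ι h * g * (ι h)⁻¹) ∈ (Pg p 𝐂[t]).map ι := by
  obtain ⟨k, hk⟩ := D.nor.conj_mem' _ ⟨h, rfl⟩ g
  refine ⟨k * h⁻¹, mul_mem (subset_closure ⟨mc.2 (D.cmt.1 ?_), D.inj ?_⟩) (inv_mem (subset_closure ⟨hc, hp⟩)), ?_⟩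
  · rw [hk]
    exact (c.inv_left.mul_left (D.cmt.2 (mc.1 hc))).mul_left c
  · rw [map_pow, hk, show g⁻¹ * ι h * g = g⁻¹ * ι h * g⁻¹⁻¹ by rw [inv_inv], conj_pow, ← map_pow, hp]; simp
  · rw [map_mul, hk, map_inv]; group

theorem pv (ht : ι t = F.e (x5 1)) (hc : h ∈ 𝐂[t]) (hp : h ^ p = 1) (fp : ∀ v ∈ Z2, Commute (ι h) (F.e v) → v = 1)
    {N : Subgroup (V K)} (hN : ∀ w ∈ N, F.e w ∈ (Pg p 𝐂[t]).map ι) (m3 : x3 1 ∈ N) (m4 : x4 1 ∈ N) (m6 : x6 1 ∈ N)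
    (m7 : x7 1 ∈ N) {u : V K} (mu : u ∈ N) (hu : u ∈ R ∧ u ∈ X1) (u2 : u.c2 * u.c8 ≠ u.b4 * u.b6) :
    PV p t ((Z2.map F.e).comap ι) h (F.e.range.comap ι ⊓ Pg p 𝐂[t]) where
  ne e := by
    obtain ⟨a, ha⟩ := D.ex (v := x4 1) (by vp)
    obtain rfl : a = 1 := e.le (show a ∈ _ from ⟨_, show x4 1 ∈ Z2 by vs, ha.symm⟩)
    have := F.inj (ha.symm.trans ((map_one ι).trans (map_one F.e).symm))
    revert this; vs; simp
  le v := fun ⟨z, hz, e⟩ => mc.2 (D.cmt.1 (e ▸ ht ▸ F.ec (R_comm (by vs) hz).symm))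
  el v := fun ⟨z, (hz : z ∈ Z2), e⟩ => D.inj (by
    rw [map_mul, ← e, ← map_mul, map_one, show z * z = 1 by clear * - hz; dst z hz; vp, map_one])
  tc v := fun ⟨z, (hz : z ∈ Z2), e⟩ => by
    obtain ⟨g, c, hg⟩ := F.jz2 hz
    obtain ⟨w, hw⟩ := Z3_x5 (v := x5 1 * z) (by clear * - hz; dst z hz; vp) (by clear * - hz; dst z hz; vs; simp)
    refine ⟨D.tc4 (e ▸ hg), (D.cj (g := F.e w) ?_ (ht ▸ F.ec (by vp))).symm⟩
    rw [map_mul, ht, ← e, ← map_mul, F.ej, hw]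
    congr 2
    clear * - hz; dst z hz; vs
  nV := le_norm_iff.2 fun a ha v hv => by
    rw [mem_comap, map_mul, map_mul, map_inv]
    exact conj_mem_of_norm (F.jn5 (D.mg _) (ht ▸ D.cmt.2 (mc.1 ha))) hv
  hc := hc
  hp := hp
  fpf v := fun ⟨z, hz, e⟩ c => D.inj (by rw [← e, fp z hz (e ▸ D.cmt.2 (mc.1 c).symm), map_one, map_one])
  pS := pgroup_of_le D.sylU.pgroup inf_le_left
  gS := inf_le_right
  cS y hy c _ := by
    have k : ∀ w ∈ N, Commute (ι y) (F.e w) := fun w hw => by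
      obtain ⟨k, hk, e⟩ := hN w hw
      exact e ▸ D.cmt.2 (mem_cent.1 c k ⟨⟨w, e.symm⟩, hk⟩).symm
    obtain ⟨v, hv, e⟩ := F.CZ2 ⟨D.mg _, mc.2 (k _ m4)⟩ (k _ m6)
    rw [e] at k
    have h0 := f4_Z3 hv (F.ce (e ▸ ht ▸ D.cmt.2 (mc.1 hy))) (F.ce (k _ m3)) (F.ce (k _ m7))
    have h1 := F.ce (k _ mu)
    have h3 : v ∈ Z3 := by
      clear * - h0 h1 hu u2
      obtain ⟨_, _, _, _, _, _, _, _, _, _, _, _⟩ := u
      vs at hu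
      dst v h0; vs at *; grind
    obtain ⟨a, ha⟩ := D.ex (v := x4 v.c4 * x6 v.c6) (by vp)
    refine ⟨a, ⟨_, show _ ∈ Z2 by vp, ha.symm⟩, mem_cent.2 fun k hk => D.cmt.1 ?_⟩
    rw [map_mul, ha, e, ← map_mul, show x4 v.c4 * x6 v.c6 * v = x5 v.a5 by clear * - h3; dst v h3; vp]
    exact F.jc5 (D.mg _) (ht ▸ D.cmt.2 (mc.1 hk)) _

omit D in
theorem mn {X : Type} [Group X] [Finite X] {ι : X →* Γ} (D : RD F ι)
    (c1 : ∀ α : MulAut X, α * α = 1 → (∀ x ∈ F.e.range.comap ι, α x = x) → α ∈ Inn X) (r : ¬ 4 ∣ Nat.card (Out X))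
    (pp : p.Prime) (p2 : p ≠ 2) (po : ¬ p ∣ Nat.card (Out X)) (nc : QT.NC p X)
    (k : ∀ t, ι t = F.e (x5 1) → ∃ W h S, PV p t W h S) : Mn X := by
  refine mn_two D.sylU c1 D.t1 D.nab r (.inr ⟨p, pp, p2, po, nc.not_cy pp, r, fun a ha => ?_⟩)
  obtain ⟨g, -, e | e⟩ := F.cls (D.gen ▸ D.syl) (D.mg (ι a)) (by rw [← map_mul, ← sq, ← ha, pow_orderOf_eq_one, map_one])
    fun e => by simp [D.inj (e.trans (map_one ι).symm)] at ha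
  · exact .inl (D.tc4 e)
  obtain ⟨t, ht⟩ := D.ex (v := x5 1) (by vp)
  obtain ⟨W, h, S, k⟩ := k t ht
  exact .inr (k.conj (D.cj (e.trans ht.symm) (ht ▸ F.ec (by vp))).symm)

end RD

end Cfsg.Lib.QJ
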