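import Cfsg.Agent.Lib.QJ.Small
import Cfsg.Agent.Lib.QS.G2
import Cfsg.Prelude.Def_ChevG2
import Cfsg.Prelude.Def_LieTwisted

/-! # QJ (S1817): `G₂(q)` (`q ≥ 4`) and `³D₄(q)`, `q` even

Add import `Lib.QS.G2` (`lie_md`, `GSt.md_G2`, `GSt.md_D4` as in `lie_G2`, `lie_3D4`); prove `Mn J` from `m : GSt.Md J F K`.
`U = m.j.range`, `Zc U = Z = {zz c}`, `T1` by the torus, `Out` is cyclic (`m.Θ`, `RingAut K`; `cy_of_cyclic`), `c1`/`O1` from `LieU`.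
`In`: `m.inv_cls`: classes of `z` and of `t = j (x1 1)`; `t * zz c ~ t` under `x11 s` with `ℓ s = c`; use `p2_of_pow`, `P2.conj`.
* `K = F` (`G₂(q)`, `φ = id`, `σ × s = 0`): `n = 2`, `y = x10 1 * x2 1 ∈ C(t)'` (commutators with `h ((ι l)⁻¹, l²)`, which centralises `t`),
  `y² = zz 1`.  If `u ∈ U` and `u⁴ = 1` then `σ t = 0` and `u² ∈ V = ⟨x2, zz⟩`, all of whose elements are conjugate into `Z`
  (`nb`, `x10`).  A general `u` with `u⁴ = 1` is conjugate into `U`.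
* `|K| = |F|³`: `n = 4`, `y = x3 σ * x10 1 * …` with `σ ≠ 0`, `ℓ σ = 0` centralises `t`, `y⁴ = zz (N σ …) ≠ 1`.  For `u ∈ U`, `u² ∈ QR` and
  `u⁴ ∈ Z`.  `i`: if `|F| = 2` then `|Out|` is odd (`out_of_cop`), else `y ∈ C(t)'` (`out_of_der`). -/

set_option autoImplicit false
set_option linter.unusedSectionVars false

namespace Cfsg.Lib.QJ

open Subgroup Cfsg.Lib.BG Cfsg.Lib.Comp Cfsg.Lib.QS
open scoped Cfsg.Lib.Transfer commutatorElement MatrixGroups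

namespace Gm

open G2S G2S.U GSt

variable {J F K : Type*} [Group J] [Finite J] [Field F] [Field K] [Finite F] [Finite K] (m : GSt.Md J F K)

include m in
/-- `Out J` embeds in `RingAut K` -/
theorem emb : ∃ e : Out J →* RingAut K, Function.Injective e := by
  refine ⟨QuotientGroup.lift _ m.Θ ?_, (injective_iff_map_eq_one _).2 fun a => QuotientGroup.induction_on a fun α h => ?_⟩
  · rintro _ ⟨l, rfl⟩; exact m.Θ_conj l
  · obtain ⟨l, e⟩ := m.eq_Θ α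
    rw [show m.Θ α = 1 from h, map_one, mul_one] at e
    exact (QuotientGroup.eq_one_iff _).2 ⟨l, e.symm⟩

include m in
theorem cyc : IsCyclic (Out J) :=
  let ⟨e, h⟩ := emb m
  have := aut_cyclic K
  isCyclic_of_injective e h

include m in
theorem ab (a b : Out J) : a * b = b * a :=
  let ⟨e, h⟩ := emb m
  h (by rw [map_mul, map_mul, aut_comm])

theorem zC (c : F) : m.j (zz m.k c) ∈ 𝐂(m.j.range) := mem_cent.2 (by
  rintro _ ⟨u, rfl⟩; rw [← map_mul, ← map_mul, comm_Z u (zz_mem c)])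

theorem tcZ {a : U m.k} (h : a ∈ Z m.k) : Tc (m.j a) := eq_zz h ▸ tc_of m.em.syl (zC m _)

theorem cu (u : U m.k) {a a' : U m.k} (e : u * a * u⁻¹ = a') : IsConj (m.j a) (m.j a') :=
  m.j.map_isConj (isConj_iff.2 ⟨u, e⟩)

theorem cz {x : F} (n : x ≠ 0) : IsConj (m.j (zz m.k x)) m.z := by
  obtain ⟨y, hy⟩ := Md.jl_rtF m.k x⁻¹
  have ny : y ≠ 0 := fun f => inv_ne_zero n (by rw [← hy, f]; simp)
  exact isConj_iff.2 ⟨_, by rw [m.h_j (1, Units.mk0 y ny), tor_zz]; simp [hy, n]⟩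

theorem tcV {b : U m.k} (hV : b ∈ V m.k) : Tc (m.j b) := by
  by_cases hc : b.c = 0
  · exact tcZ m ⟨hV.1, hV.2.1, hV.2.2.1, hV.2.2.2, hc⟩
  refine (tcZ m (zz_mem b.c)).conj ((cu m (x10 m.k (b.z / b.c)) (a' := x2 m.k b.c) ?_).trans
    (isConj_iff.2 ⟨m.nb, by rw [m.wd.ib, m.wd.b2]⟩)).symm
  rw [Md.jl_cm, cm_V _ hV]
  ext <;> simp [x10, x2, zz, mul_s, mul_u, mul_c, mul_z, hV.1, hV.2.1, hV.2.2.1, hV.2.2.2, hc, m.k.aaF]

theorem t1 : T1 m.j.range := by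
  have k : ∀ a ∈ Zc m.j.range, a ≠ 1 → IsConj a m.z := by
    rintro _ ⟨⟨a, rfl⟩, h, -⟩ n
    have hz : a ∈ Z m.k := mem_Z_of fun b _ => m.em.inj (by
      rw [map_commutatorElement, map_one, commutatorElement_eq_one_iff_mul_comm]; exact (mem_cent.1 h _ ⟨b, rfl⟩).symm)
    rw [eq_zz hz] at n ⊢
    exact cz m fun e => n (by rw [e, zz_zero, map_one])
  exact t1_of_conj m.em.syl fun a ha b hb a1 b1 => (k a ha a1).trans (k b hb b1).symm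

theorem nab : ¬ m.j.range ≤ 𝐂(m.j.range) := fun h => by
  have e : ⁅x3 m.k 1, x10 m.k 1⁆ = 1 := m.em.inj (by
    rw [map_commutatorElement, map_one, commutatorElement_eq_one_iff_mul_comm]; exact mem_cent.1 (h ⟨_, rfl⟩) _ ⟨_, rfl⟩)
  have := cm_s (x3 m.k 1) (x10 m.k 1)
  rw [e] at this
  simp [x3, x10] at this

/-- `C_U(x1 1)` -/
theorem cen {a : U m.k} (h1 : m.k.ℓ a.σ = 0) (h2 : m.k.ℓ a.s = 0) : m.j a ∈ 𝐂[m.j (x1 m.k 1)] := by
  have e : ⁅a, x1 m.k 1⁆ = 1 := by rw [cm_A0 _ (x1_A0 1)]; ext <;> simp [x1, h1, h2]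
  rw [mem_cent1, ← map_mul, ← map_mul, commutatorElement_eq_one_iff_mul_comm.1 e]

theorem tz (c : F) : IsConj (m.j (x1 m.k 1)) (m.j (x1 m.k 1) * m.j (zz m.k c)) := by
  rw [← map_mul]
  refine cu m (x11 m.k (m.k.ι c)) ?_
  rw [Md.jl_cm, cm_A0 _ (x1_A0 1)]
  ext <;> simp [x1, x11, zz, mul_s, mul_u, mul_c, mul_z]

/-- powers of 2-elements -/
theorem tc_pow {n e : ℕ} (hn : n * 2 = 2 ^ e) (k : ∀ a : U m.k, a ^ n * a ^ n = 1 → Tc (m.j (a ^ n))) (u : J)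
    (h : u ^ n * u ^ n = 1) : Tc (u ^ n) := by
  have p : CT.Tw u := (IsPGroup.iff_card).2 (by
    rw [Nat.card_zpowers]
    obtain ⟨i, -, r⟩ := (Nat.dvd_prime_pow Nat.prime_two).1 (orderOf_dvd_of_pow_eq_one (x := u) (n := 2 ^ e) (by
      rw [← hn, pow_mul, sq, h]))
    exact ⟨i, r⟩)
  obtain ⟨g, -, a, r⟩ := CT.syl_conj1 m.em.syl p (mem_top u)
  have r' : m.j (a ^ n) = g * u ^ n * g⁻¹ := by rw [map_pow, r, conj_pow]
  exact (k a (m.em.inj (by rw [map_mul, r', conj_mul, h]; simp))).conj (isConj_iff.2 ⟨g, r'.symm⟩).symm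

/-- the torus of `C(x1 1)` -/
theorem der {l : F} (l0 : l ≠ 0) {a b : U m.k} (ha : m.j a ∈ 𝐂[m.j (x1 m.k 1)])
    (e : tor m.k (m.k.ι l)⁻¹ (l ^ 2) a * a⁻¹ = b) : m.j b ∈ ⁅𝐂[m.j (x1 m.k 1)], 𝐂[m.j (x1 m.k 1)]⁆ := by
  have n := m.k.ι_ne l0
  let p : Kˣ × Fˣ := (Units.mk0 _ (inv_ne_zero n), Units.mk0 _ (pow_ne_zero 2 l0))
  have hp : m.h p ∈ 𝐂[m.j (x1 m.k 1)] := by
    rw [mem_cent1, ← mul_inv_eq_iff_eq_mul, m.h_j, tor_x1]
    simp [p, sh_inv, sh_ι1, n]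
  have := commutator_mem_commutator hp ha
  rwa [commutatorElement_def, m.h_j, ← map_inv, ← map_mul, show tor m.k p.1 p.2 a * a⁻¹ = b from e] at this

theorem d10 {l : F} (l0 : l ≠ 0) (l1 : l ≠ 1) : m.j (x10 m.k 1) ∈ ⁅𝐂[m.j (x1 m.k 1)], 𝐂[m.j (x1 m.k 1)]⁆ := by
  have n : l ^ 2 + 1 ≠ 0 := fun e => l1 (Md.jl_sqF m.k (by rw [one_pow]; exact m.k.add_eq_zeroF.1 e))
  refine der m l0 (a := x10 m.k (l ^ 2 + 1)⁻¹) (cen m (by simp [x10]) (by simp [x10])) ?_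
  rw [tor_x10, inv_eq_of_mul_eq_one_left (x10_sq _), x10_mul, ← add_one_mul, mul_inv_cancel₀ n]

theorem p2 : P2 (m.j (x1 m.k 1)) := by
  have hZ : center J = ⊥ := eq_bot_iff.2 fun g h => m.center_eq fun x => (mem_center_iff.1 h x).symm
  have nv : ∀ {l : F}, l ≠ 1 → l⁻¹ + 1 ≠ 0 := fun l1 e => l1 (inv_eq_one.1 (m.k.add_eq_zeroF.1 e))
  by_cases hG : m.k.G2
  · obtain ⟨x, x0, x1'⟩ := m.k.big
    obtain ⟨l, rfl⟩ := hG.surj x
    have l0 : l ≠ 0 := fun e => x0 (by rw [e, map_zero])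
    have l1 : l ≠ 1 := fun e => x1' (by rw [e, map_one])
    have e : m.j (x10 m.k 1 * x2 m.k 1) ^ 2 = m.j (zz m.k 1) := by
      rw [← map_pow, sq, sq_Q (mul_mem (x10_Q 1) (V_Q (x2_V 1)))]
      simp [q, x10, x2, mul_s, mul_c]
    refine p2_of_pow hZ (n := 2) (y := m.j (x10 m.k 1 * x2 m.k 1)) (cen m (by simp [x10, x2]) (by simp [x10, x2, mul_s]))
      (out_of_der (ab m) _ ?_) (by rw [e, ← map_mul, zz_sq, map_one]) (by
        rw [e, Ne, map_eq_one_iff _ m.em.inj, zz_eq_one]; exact one_ne_zero) (e ▸ tz m 1) (tc_pow m (e := 2) rfl fun a h => ?_)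
    · rw [map_mul]
      refine mul_mem (d10 m l0 l1) (der m l0 (a := x2 m.k (l⁻¹ + 1)⁻¹) (cen m (by simp [x2]) (by simp [x2])) ?_)
      rw [tor_x2, inv_eq_of_mul_eq_one_left (x2_sq _), x2_mul, ← add_one_mul, N_inv, N_ι1,
        show (l ^ 3)⁻¹ * l ^ 2 = l⁻¹ by field_simp, mul_inv_cancel₀ (nv l1)]
    · rw [sq] at h ⊢
      refine (mem_union h).elim (fun r => tcZ m (sq_QZ r)) fun r => tcV m ?_
      exact ⟨sq_σ a, sq_t a, (sq_R r).2.2, by rw [sq_u, mem_R.1 r, hG.cr]; simp⟩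
  · obtain ⟨σ, s0, hσ⟩ := m.k.exists_perp_ne hG 1
    rw [mul_one] at hσ
    have p4 : ∀ a : U m.k, a ^ 4 = zz m.k (a.t ^ 2 * m.k.N a.σ) := fun a => by
      rw [← sq_sq]; simp only [pow_succ, pow_zero, one_mul, mul_assoc]
    have e : m.j (x10 m.k 1 * x3 m.k σ) ^ 4 = m.j (zz m.k (m.k.N σ)) := by
      rw [← map_pow, p4]; simp [x10, x3]
    have e2 : m.j (x10 m.k 1 * x3 m.k σ) ^ 4 * m.j (x10 m.k 1 * x3 m.k σ) ^ 4 = 1 := by rw [e, ← map_mul, zz_sq, map_one]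
    have hy : m.j (x10 m.k 1 * x3 m.k σ) ∈ 𝐂[m.j (x1 m.k 1)] := cen m (by simpa [x10, x3] using hσ) (by simp [x10, x3, mul_s])
    refine p2_of_pow hZ (n := 4) hy ?_ e2 (by
      rw [e, Ne, map_eq_one_iff _ m.em.inj, zz_eq_one]; exact m.k.N_ne s0) (e ▸ tz m _)
      (tc_pow m (e := 3) rfl fun a _ => tcZ m (p4 a ▸ zz_mem _))
    by_cases hl : ∃ l : F, l ≠ 0 ∧ l ≠ 1
    · obtain ⟨l, l0, l1⟩ := hl
      refine out_of_der (ab m) _ ?_
      rw [map_mul]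
      refine mul_mem (d10 m l0 l1) (der m l0 (a := x3 m.k (m.k.ι (l⁻¹ + 1)⁻¹ * σ))
        (cen m (by simp [x3, ← map_inv₀, m.k.ℓ_ι, hσ]) (by simp [x3])) ?_)
      rw [tor_x3, inv_eq_of_mul_eq_one_left (x3_sq _), x3_mul, ← add_one_mul, ← mul_assoc, ← map_inv₀, ← map_one m.k.ι, ← map_add,
        ← map_mul, mul_inv_cancel₀ (nv l1), map_one, one_mul]
    · intro f
      obtain ⟨ε, hε⟩ := emb m
      refine (map_eq_one_iff _ hε).1 (eq_one_of_rF (k := m.k) (n := 3) ?_ fun c => ?_)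
      · rw [← map_pow, ← map_pow, show (⟨_, hy⟩ : 𝐂[m.j (x1 m.k 1)]) ^ 2 ^ 3 = 1 from
          Subtype.ext ((pow_add _ 4 4).trans e2), map_one, map_one]
      · by_cases c0 : c = 0
        · rw [c0, map_zero]
        · rw [not_not.1 fun c1 => hl ⟨c, c0, c1⟩, map_one]

include m in
theorem mn : Mn J := by
  obtain ⟨_, k⟩ := lie_md m
  replace k := k.all m.em.syl
  have r := cy_of_cyclic (cyc m)
  refine ⟨_, p1_of m.em.syl (LieU_c1 k) (t1 m) (nab m) r, .inl fun t ht => ?_, .inl (LieU_o1 k r)⟩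
  obtain ⟨g, e | e⟩ := m.inv_cls (l := t) (by rw [← sq, ← ht, pow_orderOf_eq_one]) (by rintro rfl; simp at ht)
  · exact .inl ((tcZ m (zz_mem 1)).conj (isConj_iff.2 ⟨g, e⟩).symm)
  · exact .inr ((p2 m).conj (isConj_iff.2 ⟨g, e⟩).symm)

end Gm

variable {F : Type} [Field F] [Fintype F] [CharP F 2]

theorem mn_G2 (h : 4 ≤ Fintype.card F) : MnE (Lie.chevG2.group F) := by
  obtain ⟨n, -, e⟩ := FiniteField.card F 2
  obtain ⟨m⟩ := GSt.md_G2 F n (by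
    by_contra c
    have := Nat.pow_le_pow_right (n := 2) two_pos (show (n : ℕ) ≤ 1 by omega)
    omega) e
  exact (Gm.mn m).e

theorem mn_3D4 {q : ℕ} (hq : IsPrimePow q) (h : Fintype.card F = q ^ 3) : MnE (Lie.twistedD4 F q) := by
  obtain ⟨n, -, e⟩ := FiniteField.card F 2
  obtain ⟨k, -, rfl⟩ := (Nat.dvd_prime_pow Nat.prime_two).1 (show q ∣ 2 ^ (n : ℕ) from e ▸ h ▸ dvd_pow_self q three_ne_zero)
  obtain ⟨K, _, _, -, ⟨m⟩⟩ := GSt.md_D4 F k (Nat.pos_of_ne_zero (by rintro rfl; exact hq.ne_one rfl))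
    (by rw [h, ← pow_mul, mul_comm, pow_mul]; rfl)
  exact (Gm.mn m).e

end Cfsg.Lib.QJ
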