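import Cfsg.Agent.Lib.QJ.Small
import Cfsg.Agent.Lib.Perm.Higman1
import Cfsg.Agent.Lib.Inv.SylowTwo

/-! # QJ: two conjugates `L ≠ M` of a standard subgroup

Notation in the docstrings: `K = C(L)`, `Q = T ⊓ K`, `Q' = V ⊓ C(M)`, `R = S ⊓ C(M)`, `R₁ = S ⊓ K`. -/

set_option autoImplicit false
set_option linter.unusedSectionVars false

namespace Cfsg.Lib.QJ

open Subgroup Cfsg.Lib.BG Cfsg.Lib.Comp Cfsg.Lib.QS Cfsg.Lib.Transfer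
open scoped Cfsg.Lib.Transfer commutatorElement

variable {G : Type*} [Group G] [Finite G] {L M S T V W : Subgroup G} {a g k r s x y z : G} {n : ℕ}

theorem std_conj (h : IsStandardSubgroup L) (g : G) : IsStandardSubgroup (g ⋆ L) := by
  have e : ∀ (x : G) (H : Subgroup G), x ⋆ g ⋆ H = g ⋆ (g⁻¹ * x * g) ⋆ H := fun x H => by
    rw [conj_conj, conj_conj]; congr 3; group
  refine ⟨(isQuasisimple_map_conj_iff g).2 h.1, ⟨?_, fun x hx => ?_⟩, fun x hx => ?_, ?_⟩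
  · rw [← conj_centralizer, card_conj]; exact h.2.1.1
  · rw [← conj_centralizer, e, ← conj_inf, card_conj]
    exact h.2.1.2 _ fun i => hx (by rwa [← conj_centralizer, ← conj_normalizer, mem_conj])
  · rw [e, ← conj_commutator, Ne, conj_eq_bot_iff]
    exact h.2.2.1 _ fun i => hx (by rw [e, i])
  · rw [← conj_centralizer, ← conj_normalizer, ← conj_normalizer, h.2.2.2]

theorem even_of_two {H : Subgroup G} (h : x ∈ H) (e : x ^ 2 ^ n = 1) (x1 : x ≠ 1) : ¬ Odd (Nat.card H) := fun o =>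
  x1 (orderOf_eq_one_iff.1 (Nat.Coprime.eq_one_of_dvd
    ((o.coprime_two_right.pow_right n).symm.coprime_dvd_left (orderOf_dvd_of_pow_eq_one e)) (H.orderOf_dvd_natCard h)))

/-- `C(g ⋆ L) = g ⋆ K`; if `g ∉ N(L) = N(K)` then `K ⊓ g ⋆ K` has odd order -/
theorem std_ti (h : IsStandardSubgroup L) (h1 : x ∈ 𝐂(L)) (h2 : x ∈ 𝐂(g ⋆ L)) (e : x ^ 2 ^ n = 1) (x1 : x ≠ 1) : g ⋆ L = L := conj_eq_of_norm <| by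
  rw [h.2.2.2]
  exact by_contra fun i => even_of_two (mem_inf.2 ⟨h1, by rwa [conj_centralizer]⟩) e x1 (h.2.1.2 g i)

/-- `std_ti` (or S1754) -/
theorem std_cn (h : IsStandardSubgroup L) (h1 : x ∈ 𝐂(L)) (e : x ^ 2 ^ n = 1) (x1 : x ≠ 1) : 𝐂[x] ≤ 𝐍(L) := fun g hg =>
  norm_of_conj_eq (std_ti h h1 (by
    rw [← conj_centralizer, ← mul_inv_cancel_right x g, ← mem_cent1.1 hg]; exact conj_mem_conj.2 h1) e x1)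

theorem std_cn2 (h : IsStandardSubgroup L) (h1 : x ∈ 𝐂(L)) (o : orderOf x = 2) : 𝐂[x] ≤ 𝐍(L) :=
  std_cn h h1 (n := 1) (by rw [pow_one, ← o, pow_orderOf_eq_one]) (by rintro rfl; simp at o)

theorem zc_conj (g : G) (T : Subgroup G) : g ⋆ Zc T = Zc (g ⋆ T) := by
  ext x
  rw [mem_conj, mem_Zc, mem_Zc, ← conj_centralizer, mem_conj, mem_conj,
    show g⁻¹ * x * g * (g⁻¹ * x * g) = g⁻¹ * (x * x) * g⁻¹⁻¹ by group, conj_eq_one_iff]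

theorem zc_exists (p : IsPGroup 2 T) (l : W ≤ T) (nm : T ≤ 𝐍(W)) (n : W ≠ ⊥) : ∃ z ∈ W, z ∈ 𝐂(T) ∧ orderOf z = 2 :=
  let ⟨z, a, b⟩ := Inv.exists_involution_mem_of_isPGroup (pgroup_of_le p (inf_le_left.trans l))
    (nil_meet_center (pgroup_nil p) l nm n)
  ⟨z, a.1, a.2, b⟩

namespace Fm

variable (h : Fm L T)
include h

theorem conj (g : G) : Fm (g ⋆ L) (g ⋆ T) := ⟨h.hy, std_conj h.std g, h.syl.conj_top g, conj_normalizer g L ▸ conj_mono g h.nT⟩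

theorem sylN : Syl 2 T 𝐍(L) := h.syl.of_le h.nT le_top

theorem sylK : Syl 2 (T ⊓ 𝐂(L)) 𝐂(L) := h.syl.inf le_top (norm_cent h.nT)

theorem sylL : Syl 2 (T ⊓ L) L := h.syl.inf le_top h.nT

/-- `K` has even order -/
theorem Q_ne : T ⊓ 𝐂(L) ≠ ⊥ := Syl.ne_bot' h.sylK (even_iff_two_dvd.1 h.std.2.1.1)

theorem exists_z : ∃ z ∈ T ⊓ 𝐂(L), z ∈ 𝐂(T) ∧ orderOf z = 2 := zc_exists h.syl.pgroup inf_le_left (norm_inf (le_norm T) (norm_cent h.nT)) h.Q_ne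

theorem exists_ge (p : IsPGroup 2 W) (l : W ≤ 𝐍(L)) : ∃ T', Fm L T' ∧ W ≤ T' :=   let ⟨g, hg, e⟩ := Syl.exists_le_conj h.sylN p l
  ⟨_, conj_eq_of_norm hg ▸ h.conj g, e⟩

theorem exists_pd (ne : g ⋆ L ≠ L) (p : IsPGroup 2 W) (l : W ≤ 𝐍(L) ⊓ 𝐍(g ⋆ L)) :
    ∃ S T' V, Pd L (g ⋆ L) S T' V ∧ W ≤ S := by
  obtain ⟨S, s, e⟩ := Syl.exists_ge p l
  obtain ⟨T', a, b⟩ := h.exists_ge s.pgroup (s.le.trans inf_le_left)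
  obtain ⟨V, c, d⟩ := (h.conj g).exists_ge s.pgroup (s.le.trans inf_le_right)
  exact ⟨S, T', V, ⟨a, c, ⟨g, rfl⟩, ne, s, b, d⟩, e⟩

/-- Sylow's theorem in `N(g ⋆ L)` -/
theorem exists_conj (k : Fm (g ⋆ L) V) : ∃ x : G, x ⋆ L = g ⋆ L ∧ x ⋆ T = V := by
  obtain ⟨x, hx, e⟩ := Syl.exists_conj_eq (h.conj g).sylN k.sylN
  exact ⟨x * g, by rw [← conj_conj, conj_eq_of_norm hx], by rw [e, conj_conj]⟩

theorem card_Q (k : Fm (g ⋆ L) V) : Nat.card ↥(V ⊓ 𝐂(g ⋆ L)) = Nat.card ↥(T ⊓ 𝐂(L)) := by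
  obtain ⟨x, a, b⟩ := h.exists_conj k
  rw [← a, ← b, ← conj_centralizer, ← conj_inf, card_conj]

theorem card_ZQ (k : Fm (g ⋆ L) V) : Nat.card (Zc (V ⊓ 𝐂(g ⋆ L))) = Nat.card (Zc (T ⊓ 𝐂(L))) := by
  obtain ⟨x, a, b⟩ := h.exists_conj k
  rw [← a, ← b, ← conj_centralizer, ← conj_inf, ← zc_conj, card_conj]

theorem card_U (k : Fm (g ⋆ L) V) : Nat.card ↥(V ⊓ g ⋆ L) = Nat.card ↥(T ⊓ L) := by
  obtain ⟨x, a, b⟩ := h.exists_conj k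
  rw [← a, ← b, ← conj_inf, card_conj]

end Fm

namespace Pd

variable (h : Pd L M S T V)
include h

theorem symm : Pd M L S V T :=   let ⟨g, e⟩ := h.cj
  ⟨h.m, h.l, ⟨g⁻¹, by rw [e, inv_conj_conj]⟩, h.ne.symm, inf_comm 𝐍(L) _ ▸ h.syl, h.sV, h.sT⟩

theorem one (h1 : x ∈ 𝐂(L)) (h2 : x ∈ 𝐂(M)) (e : x ^ 2 ^ n = 1) : x = 1 := by
  obtain ⟨g, rfl⟩ := h.cj
  exact by_contra fun x1 => h.ne (std_ti h.l.std h1 h2 e x1)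

theorem pS : IsPGroup 2 S := h.syl.pgroup

theorem nL : S ≤ 𝐍(L) := h.syl.le.trans inf_le_left

theorem nR : S ≤ 𝐍(S ⊓ 𝐂(L)) := norm_inf (le_norm S) (norm_cent h.nL)

theorem two (hx : x ∈ S) : ∃ n, x ^ 2 ^ n = 1 :=
  let ⟨n, e⟩ := h.pS ⟨x, hx⟩
  ⟨n, congrArg Subtype.val e⟩

theorem nQ : T ≤ 𝐍(T ⊓ 𝐂(L)) := norm_inf (le_norm T) (norm_cent h.l.nT)

/-- `[R, R₁] ≤ R ⊓ R₁ = 1` -/
theorem comm : S ⊓ 𝐂(M) ≤ 𝐂(S ⊓ 𝐂(L)) := cent_of_norm_of_disjoint (inf_le_left.trans h.nR) (inf_le_left.trans h.symm.nR)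
  (eq_bot_iff.2 fun _ hx => let ⟨_, e⟩ := h.two hx.1.1; h.one hx.2.2 hx.1.2 e)

/-- `C_Q(s)` is a 2-subgroup of `K ⊓ N(M)` that contains the Sylow 2-subgroup `R₁` of `K ⊓ N(M)` -/
theorem cQ (hs : s ∈ S ⊓ 𝐂(M)) (s1 : s ≠ 1) (hx : x ∈ T ⊓ 𝐂(L)) (c : x ∈ 𝐂[s]) : x ∈ S := by
  obtain ⟨n, e⟩ := h.two hs.1
  have l : T ⊓ 𝐍(M) ≤ 𝐍(L) ⊓ 𝐍(M) := inf_le_inf_right _ h.l.nT
  rw [Syl.eq_of_le_pgroup h.syl (le_inf h.sT h.symm.nL) l (pgroup_of_le h.l.syl.pgroup inf_le_left)]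
  exact ⟨hx.1, std_cn h.m.std hs.2 e s1 c⟩

/-- `R` normalises the 2-group `Q ≠ ⊥` -/
theorem ne_bot (h1 : S ⊓ 𝐂(M) ≠ ⊥) : S ⊓ 𝐂(L) ≠ ⊥ := by
  obtain ⟨s, hs, s1⟩ := exists_ne_one h1
  obtain ⟨z, a, b, o⟩ := h.l.exists_z
  exact ne_bot_of_mem ⟨h.cQ hs s1 a (cent_le_cent1 (h.sT hs.1) b), a.2⟩ (Inv.ord_two_iff.1 o).1

/-- `E = R₁ ⊔ R` is properly contained in the 2-group `Q ⊔ R`, so `N_Q(E) > R₁ = E ⊓ K`; take `y ∈ N_Q(E) \ R₁` with `y² ∈ R₁`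
(`exists_sq_mem`).  `s⁻¹ * (y * s * y⁻¹) ∈ Q ⊓ E = R₁`.  The last claim is `cQ`. -/
theorem mover (h1 : S ⊓ 𝐂(M) ≠ ⊥) (n : ¬ T ⊓ 𝐂(L) ≤ S) : ∃ y ∈ T ⊓ 𝐂(L), y * y ∈ S ∧
    (∀ s ∈ S ⊓ 𝐂(M), s⁻¹ * (y * s * y⁻¹) ∈ S ⊓ 𝐂(L)) ∧ ∀ s ∈ S ⊓ 𝐂(M), y ∈ 𝐂[s] → s = 1 := by
  have eS : S ⊓ 𝐂(L) ⊔ S ⊓ 𝐂(M) ≤ S := sup_le inf_le_left inf_le_left
  have rT : S ⊓ 𝐂(M) ≤ T := inf_le_left.trans h.sT
  have lt := lt_inf_normalizer_of_lt (pgroup_of_le h.l.syl.pgroup (sup_le inf_le_left rT))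
    (H := S ⊓ 𝐂(L) ⊔ S ⊓ 𝐂(M)) (P := T ⊓ 𝐂(L) ⊔ S ⊓ 𝐂(M))
    (lt_of_le_of_ne (sup_le_sup_right (inf_le_inf_right _ h.sT) _) fun e => n (le_sup_left.trans (e.ge.trans eS)))
  obtain ⟨_, ⟨hw, wn⟩, w'⟩ := SetLike.exists_of_lt lt
  obtain ⟨q, hq, r, hr, rfl⟩ := (mem_sup_left_norm (rT.trans h.nQ)).1 hw
  have qn := (mul_mem_cancel_right (le_norm _ (mem_sup_right hr))).1 wn
  obtain ⟨y, hy, y', y2⟩ := Perm.exists_sq_mem h.l.syl.pgroup (A := S) hq.1 fun e => w' (mul_mem_sup ⟨e, hq.2⟩ hr)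
  have yQ := zpowers_le.2 hq hy
  refine ⟨y, yQ, sq y ▸ y2, fun s hs =>
    mem_inf.2 ⟨S.mul_mem (S.inv_mem hs.1) (eS (conj_mem_of_norm (zpowers_le.2 qn hy) (mem_sup_right hs))), ?_⟩,
    fun s hs c => by_contra fun s1 => y' (h.cQ hs s1 yQ c)⟩
  simpa only [mul_assoc] using 𝐂(L).mul_mem (conj_mem_of_norm' (norm_cent h.nL hs.1) yQ.2) (𝐂(L).inv_mem yQ.2)

theorem phi_inj (h1 : ∀ s ∈ S ⊓ 𝐂(M), s⁻¹ * (y * s * y⁻¹) ∈ S ⊓ 𝐂(L)) (h2 : ∀ s ∈ S ⊓ 𝐂(M), y ∈ 𝐂[s] → s = 1) :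
    Function.Injective fun s : ↥(S ⊓ 𝐂(M)) => (⟨_, h1 s s.2⟩ : ↥(S ⊓ 𝐂(L))) := fun a b e => by
  have e : a.1⁻¹ * (y * a * y⁻¹) = b.1⁻¹ * (y * b * y⁻¹) := congrArg Subtype.val e
  refine Subtype.ext (mul_inv_eq_one.1 (h2 _ (mul_mem a.2 (inv_mem b.2)) (mem_cent1.2 ?_)))
  calc y * (a * b.1⁻¹) = a * (a.1⁻¹ * (y * a * y⁻¹)) * (y * b.1⁻¹) := by group
    _ = _ := by rw [e]; group

/-- `φ s = s⁻¹ * (y * s * y⁻¹)` is a homomorphism `R → R₁` (`comm`) with trivial kernel -/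
theorem card_le (h1 : S ⊓ 𝐂(M) ≠ ⊥) (n : ¬ T ⊓ 𝐂(L) ≤ S) : Nat.card ↥(S ⊓ 𝐂(M)) ≤ Nat.card ↥(S ⊓ 𝐂(L)) :=   let ⟨_, _, _, a, b⟩ := h.mover h1 n
  Nat.card_le_card_of_injective _ (h.phi_inj a b)

theorem cardQ : Nat.card ↥(V ⊓ 𝐂(M)) = Nat.card ↥(T ⊓ 𝐂(L)) := by
  obtain ⟨g, rfl⟩ := h.cj
  exact h.l.card_Q h.m

/-- otherwise (`symm.card_le`) `|Q| = |R₁| ≤ |R| < |Q'| = |Q|` -/
theorem full (h1 : S ⊓ 𝐂(M) ≠ ⊥) (f : T ⊓ 𝐂(L) ≤ S) : V ⊓ 𝐂(M) ≤ S := by_contra fun n => by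
  have a := h.symm.card_le (h.ne_bot h1) n
  have b := card_lt_of_lt (lt_of_le_of_ne (inf_le_inf_right 𝐂(M) h.sV) fun e => n (e.ge.trans inf_le_left))
  have c := card_le_of_le (le_inf f inf_le_right)
  have := h.cardQ
  omega

theorem card_eq (h1 : S ⊓ 𝐂(M) ≠ ⊥) : Nat.card ↥(S ⊓ 𝐂(M)) = Nat.card ↥(S ⊓ 𝐂(L)) := by
  by_cases f : T ⊓ 𝐂(L) ≤ S
  · rw [le_antisymm (inf_le_inf_right 𝐂(M) h.sV) (le_inf (h.full h1 f) inf_le_right),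
      le_antisymm (inf_le_inf_right 𝐂(L) h.sT) (le_inf f inf_le_right), h.cardQ]
  exact le_antisymm (h.card_le h1 f) (h.symm.card_le (h.ne_bot h1) fun e => f (h.symm.full (h.ne_bot h1) e))

/-- `φ` is onto by `card_eq`; `y² ∈ R₁` centralises `s`, so `s = s * φ s * (y * φ s * y⁻¹)` -/
theorem inv (h1 : S ⊓ 𝐂(M) ≠ ⊥) (n : ¬ T ⊓ 𝐂(L) ≤ S) : ∃ y ∈ T ⊓ 𝐂(L), (∀ a ∈ S ⊓ 𝐂(L), y * a * y⁻¹ = a⁻¹) ∧
    (∀ s ∈ S ⊓ 𝐂(M), y ∈ 𝐂[s] → s = 1) ∧ (∀ s ∈ S ⊓ 𝐂(M), ∃ a ∈ S ⊓ 𝐂(L), y * s * y⁻¹ = s * a) ∧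
      ∀ a ∈ S ⊓ 𝐂(L), ∃ s ∈ S ⊓ 𝐂(M), y * s * y⁻¹ = s * a := by
  obtain ⟨y, yQ, y2, a, b⟩ := h.mover h1 n
  have on : ∀ a ∈ S ⊓ 𝐂(L), ∃ s ∈ S ⊓ 𝐂(M), y * s * y⁻¹ = s * a := fun c hc =>
    let ⟨s, e⟩ := ((h.phi_inj a b).bijective_of_nat_card_le (h.card_eq h1).ge).2 ⟨c, hc⟩
    ⟨s, s.2, inv_mul_eq_iff_eq_mul.1 (congrArg Subtype.val e)⟩
  refine ⟨y, yQ, fun c hc => ?_, b, fun s hs => ⟨_, a s hs, (mul_inv_cancel_left ..).symm⟩, on⟩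
  obtain ⟨s, hs, e⟩ := on c hc
  have := mem_cent.1 (h.comm hs) _ ⟨y2, mul_mem yQ.2 yQ.2⟩
  calc y * c * y⁻¹ = (y * s * y⁻¹)⁻¹ * (y * (s * c) * y⁻¹) := by group
    _ = (s * c)⁻¹ * (y * y * s * (y * y)⁻¹) := by rw [← e]; group
    _ = _ := by rw [this]; group

/-- otherwise `y` of `inv` centralises `r * k` and `k = k⁻¹`, hence `r` -/
theorem pl (hr : r ∈ S ⊓ 𝐂(M)) (r1 : r ≠ 1) (hk : k ∈ S ⊓ 𝐂(L)) (k2 : k * k = 1) (e : r * k ∈ L) : T ⊓ 𝐂(L) ≤ S := by_contra fun n => by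
  obtain ⟨y, yQ, a, b, -⟩ := h.inv (ne_bot_of_mem hr r1) n
  refine r1 (b r hr (mem_cent1.2 (mul_right_cancel (b := k) ?_)))
  rw [mul_assoc, ← mem_cent.1 yQ.2 _ e, mul_assoc, mul_assoc, mul_inv_eq_iff_eq_mul.1 (a k hk), inv_eq_of_mul_eq_one_left k2]

end Pd

end Cfsg.Lib.QJ
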