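import Cfsg.Agent.Lib.QJ.Pair

/-! # QJ: counting lemmas (pure) and the set `𝒩` of conjugates of `L` normalised by `T` -/

set_option autoImplicit false
set_option linter.unusedSectionVars false

namespace Cfsg.Lib.QJ

open Subgroup Cfsg.Lib.BG Cfsg.Lib.Comp Cfsg.Lib.QS
open scoped Cfsg.Lib.Transfer commutatorElement

/-- handshake lemma (`SimpleGraph.even_card_odd_degree_vertices` or `sum_degrees_eq_twice_card_edges`) -/
theorem handshake {α : Type*} {s : Set α} (f : s.Finite) (o : Odd s.ncard) {b : α → α → Prop}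
    (sy : ∀ x ∈ s, ∀ y ∈ s, b x y → b y x) (ir : ∀ x ∈ s, ¬ b x x) {d : ℕ} (e : ∀ x ∈ s, {y | y ∈ s ∧ b x y}.ncard = d) : Even d := by
  classical
  have := f.fintype
  let Γ : SimpleGraph s := ⟨fun x y => b x y, ⟨fun x y h => sy _ x.2 _ y.2 h⟩, ⟨fun x => ir _ x.2⟩⟩
  have dd (v : s) : Γ.degree v = d := by
    rw [← e _ v.2, ← SimpleGraph.card_neighborSet_eq_degree, ← Nat.card_eq_fintype_card, Nat.card_coe_set_eq,
      ← Set.ncard_image_of_injective _ Subtype.val_injective]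
    congr 1
    ext y
    exact ⟨fun ⟨z, a, k⟩ => k ▸ ⟨z.2, a⟩, fun k => ⟨⟨y, k.1⟩, k.2, rfl⟩⟩
  have k := Γ.sum_degrees_eq_twice_card_edges
  rw [Finset.sum_congr rfl fun v _ => dd v, Finset.sum_const, Finset.card_univ, ← Nat.card_eq_fintype_card, Nat.card_coe_set_eq,
    smul_eq_mul] at k
  exact (Nat.even_mul.1 (k ▸ even_two_mul _)).resolve_left (Nat.not_even_iff_odd.2 o)

/-- a finite set that is a disjoint union of fibres of odd size -/
theorem even_fib {α β : Type*} {s : Set α} {t : Set β} (f : s.Finite) (b : α → β → Prop) (h1 : ∀ x ∈ s, ∃! y, y ∈ t ∧ b x y)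
    (h2 : ∀ y ∈ t, Odd {x | x ∈ s ∧ b x y}.ncard) : Even s.ncard ↔ Even t.ncard := by
  classical
  have ft : t.Finite := by
    refine (f.biUnion (t := fun x => {y | y ∈ t ∧ b x y}) fun x hx => ?_).subset fun y hy => ?_
    · obtain ⟨y, -, u⟩ := h1 x hx
      exact (Set.finite_singleton y).subset u
    · obtain ⟨x, hx⟩ := Set.nonempty_of_ncard_ne_zero (h2 y hy).pos.ne'
      exact Set.mem_biUnion hx.1 ⟨hy, hx.2⟩
  have k := Finset.sum_card_bipartiteAbove_eq_sum_card_bipartiteBelow (s := f.toFinset) (t := ft.toFinset) b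
  rw [Finset.sum_congr rfl (g := fun _ => 1) fun x hx => ?_, ← Finset.card_eq_sum_ones] at k
  · rw [Set.ncard_eq_toFinset_card _ f, Set.ncard_eq_toFinset_card _ ft, k, Finset.even_sum_iff_even_card_odd, Finset.filter_true_of_mem]
    intro y hy
    convert h2 y (ft.mem_toFinset.1 hy)
    rw [← Set.ncard_coe_finset]
    congr 1
    ext x
    simp
  · obtain ⟨y, a, u⟩ := h1 x (f.mem_toFinset.1 hx)
    refine Finset.card_eq_one.2 ⟨y, Finset.ext fun z => ?_⟩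
    rw [Finset.mem_bipartiteAbove, ft.mem_toFinset, Finset.mem_singleton]
    exact ⟨u z, fun i => i ▸ a⟩

theorem even_act {H α : Type*} [Group H] [MulAction H α] [Finite α] (hH : IsPGroup 2 H) {s : Set α} (n : ∀ g : H, ∀ x ∈ s, g • x ∈ s) :
    Even s.ncard ↔ Even {x | x ∈ s ∧ ∀ g : H, g • x = x}.ncard := by
  let S : SubMulAction H α := ⟨s, fun g x h => n g x h⟩
  have k := hH.card_modEq_card_fixedPoints S
  have e : Nat.card (MulAction.fixedPoints H S) = {x | x ∈ s ∧ ∀ g : H, g • x = x}.ncard := by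
    rw [Nat.card_coe_set_eq, ← Set.ncard_image_of_injective _ Subtype.val_injective]
    congr 1
    ext y
    exact ⟨fun ⟨z, a, k⟩ => k ▸ ⟨z.2, fun g => congrArg Subtype.val (a g)⟩, fun k => ⟨⟨y, k.1⟩, fun g => Subtype.ext (k.2 g), rfl⟩⟩
  rw [← e, ← Nat.card_coe_set_eq, Nat.even_iff, Nat.even_iff]
  exact (congrArg (· = 0) k).to_iff

variable {G : Type*} [Group G] [Finite G] {A B A' B' E L M T U Z : Subgroup G} {X X' : Set G} {c g : G} {p : ℕ}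

/-- `IsPGroup.card_modEq_card_fixedPoints` -/
theorem even_fix (hT : IsPGroup 2 T) (n : ∀ t ∈ T, ∀ x ∈ X, t * x * t⁻¹ ∈ X) :
    Even X.ncard ↔ Even {x | x ∈ X ∧ x ∈ 𝐂(T)}.ncard := by
  let _ : MulAction T G := MulAction.compHom G (MulAut.conj.comp T.subtype)
  rw [even_act hT fun g => n g g.2]
  refine (congrArg (fun s : Set G => Even s.ncard) (Set.ext fun x => and_congr_right' ?_)).to_iff
  exact ⟨fun k => mem_cent.2 fun t ht => mul_inv_eq_iff_eq_mul.1 (k ⟨t, ht⟩), fun k t => mul_inv_eq_iff_eq_mul.2 (mem_cent.1 k t t.2)⟩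

/-- conjugation of subgroups -/
@[reducible] def cjAct (G : Type*) [Group G] : MulAction G (Subgroup G) where
  smul g M := g ⋆ M
  one_smul := Transfer.conj_one
  mul_smul a b M := (Transfer.conj_conj a b M).symm

/-- the same for a set of subgroups -/
theorem even_fix' (hT : IsPGroup 2 T) {D : Set (Subgroup G)} (n : ∀ t ∈ T, ∀ M ∈ D, t ⋆ M ∈ D) :
    Even D.ncard ↔ Even {M | M ∈ D ∧ T ≤ 𝐍(M)}.ncard := by
  let _ := cjAct G
  let _ : MulAction T (Subgroup G) := MulAction.compHom _ T.subtype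
  rw [even_act hT fun g => n g g.2]
  exact (congrArg (fun s : Set (Subgroup G) => Even s.ncard) (Set.ext fun x => and_congr_right'
    ⟨fun k t ht => norm_of_conj_eq (k ⟨t, ht⟩), fun k t => conj_eq_of_norm (k t.2)⟩)).to_iff

theorem odd_star (hE : IsPGroup 2 E) (ne : E ≠ ⊥) : Odd {x | x ∈ E ∧ x ≠ 1}.ncard := by
  have k := Set.ncard_sdiff_singleton_add_one (s := (E : Set G)) E.one_mem
  have e : Even (E : Set G).ncard := even_iff_two_dvd.2 (pgroup_dvd_card hE ne)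
  rw [← k, Nat.even_add_one, Nat.not_even_iff_odd] at e
  exact e

theorem T1.empty (hU : IsPGroup 2 U) (h : T1 U) (l : ∀ c ∈ X, c ∈ Zc U ∧ c ≠ 1) (n : ∀ g ∈ 𝐍(U), ∀ c ∈ X, g * c * g⁻¹ ∈ X)
    (e : Even X.ncard) : X = ∅ := by
  refine Set.eq_empty_of_forall_notMem fun x hx => Nat.not_even_iff_odd.2 (odd_star (E := Zc U) (pgroup_of_le hU fun _ k => k.1)
    (ne_bot_of_mem (l x hx).1 (l x hx).2)) ?_
  convert e
  refine Set.Subset.antisymm (fun y hy => ?_) l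
  obtain ⟨g, hg, rfl⟩ := h x (l x hx) y hy
  exact n g hg x hx

/-- `X` is the union of two of the three sets `A^#`, `B^#`, `Z \ (A ∪ B)` -/
def Gd (Z A B : Subgroup G) (X : Set G) : Prop := (∀ x, x ∈ X ↔ x ≠ 1 ∧ (x ∈ A ∨ x ∈ B)) ∨ (∀ x, x ∈ X ↔ x ∈ Z ∧ x ∉ B) ∨
  ∀ x, x ∈ X ↔ x ∈ Z ∧ x ∉ A

/-- the three orbits have the odd lengths `q - 1`, `q - 1`, `(q - 1)²` -/
theorem S4.gd (h : S4 U A B p) (l : ∀ c ∈ X, c ∈ Zc U ∧ c ≠ 1) (n : ∀ g ∈ 𝐍(U), ∀ c ∈ X, g * c * g⁻¹ ∈ X)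
    (e : Even X.ncard) : X = ∅ ∨ Gd (Zc U) A B X := by
  have zp : IsPGroup 2 (Zc U) := fun x => ⟨1, Subtype.ext (by rw [pow_one, sq]; exact x.2.2.2)⟩
  have lA : A ≤ Zc U := h.sup ▸ le_sup_left
  have lB : B ≤ Zc U := h.sup ▸ le_sup_right
  have nA : A ≠ ⊥ := fun i => by simpa [i] using h.four
  have nB : B ≠ ⊥ := fun i => by simpa [i, h.card] using h.four
  have d : ∀ x ∈ A, x ∈ B → x = 1 := fun x a b => mem_bot.1 (h.inf ▸ mem_inf.2 ⟨a, b⟩)
  have oA := odd_star (pgroup_of_le zp lA) nA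
  have oB := odd_star (pgroup_of_le zp lB) nB
  have oZ := odd_star zp (ne_bot_mono nA lA)
  have tA := h.tA
  have tB := h.tB
  have tM := h.tM
  have m1 : ∀ x, x ∉ A → x ≠ 1 := fun x k i => k (i ▸ one_mem A)
  have m2 : ∀ x, x ∉ B → x ≠ 1 := fun x k i => k (i ▸ one_mem B)
  have key : ∀ Y : Set G, (∀ c ∈ Y, c ∈ Zc U ∧ c ≠ 1) → (∀ x, x ∈ Y ↔ x ∈ Y ∩ {c | c ∈ A ∧ c ≠ 1} ∨ x ∈ Y ∩ {c | c ∈ B ∧ c ≠ 1} ∨
      x ∈ Y ∩ {c | c ∈ Zc U ∧ c ∉ A ∧ c ∉ B}) ∧ Y.ncard = (Y ∩ {c | c ∈ A ∧ c ≠ 1}).ncard + ((Y ∩ {c | c ∈ B ∧ c ≠ 1}).ncard +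
      (Y ∩ {c | c ∈ Zc U ∧ c ∉ A ∧ c ∉ B}).ncard) := fun Y hY => by
    have k : ∀ x, x ∈ Y ↔ x ∈ Y ∩ {c | c ∈ A ∧ c ≠ 1} ∨ x ∈ Y ∩ {c | c ∈ B ∧ c ≠ 1} ∨ x ∈ Y ∩ {c | c ∈ Zc U ∧ c ∉ A ∧ c ∉ B} := fun x => by
      have := hY x
      simp only [Set.mem_inter_iff, Set.mem_ofPred_eq]
      tauto
    refine ⟨k, ?_⟩
    rw [← Set.ncard_union_eq (Set.disjoint_left.2 fun x a b => b.2.2.2 a.2.1), ← Set.ncard_union_eq (Set.disjoint_left.2 fun x a b =>
      b.elim (fun b => a.2.2 (d x a.2.1 b.2.1)) fun b => b.2.2.1 a.2.1)]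
    exact congrArg _ (Set.ext k)
  have or : ∀ M : Set G, Tr U M → X ∩ M = M ∨ X ∩ M = ∅ := fun M t => (X ∩ M).eq_empty_or_nonempty.symm.imp_left fun ⟨x, hx⟩ =>
    Set.inter_eq_right.2 fun y hy => let ⟨g, hg, i⟩ := t x hx.2 y hy; i ▸ n g hg x hx.1
  have kZ := (key {c | c ∈ Zc U ∧ c ≠ 1} fun _ k => k).2
  rw [Set.inter_eq_right.2, Set.inter_eq_right.2, Set.inter_eq_right.2] at kZ
  rotate_left
  · exact fun _ k => ⟨k.1, m1 _ k.2.1⟩
  · exact fun _ k => ⟨lB k.1, k.2⟩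
  · exact fun _ k => ⟨lA k.1, k.2⟩
  obtain ⟨k1, k2⟩ := key X l
  rw [Nat.odd_iff] at oA oB oZ
  rw [Nat.even_iff] at e
  rcases or _ tA with a | a <;> rcases or _ tB with b | b <;> rcases or _ tM with c | c <;> rw [a, b, c] at k1 k2 <;>
    simp only [Set.ncard_empty, Set.mem_empty_iff_false, Set.mem_ofPred_eq, false_or, or_false] at k1 k2
  · omega
  · exact .inr (.inl fun x => (k1 x).trans (by tauto))
  · refine .inr (.inr (.inl fun x => (k1 x).trans ?_))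
    have := d x; have := @lA x; have := m2 x
    tauto
  · omega
  · refine .inr (.inr (.inr fun x => (k1 x).trans ?_))
    have := d x; have := @lB x; have := m1 x
    tauto
  · omega
  · omega
  · exact .inl (Set.eq_empty_of_forall_notMem fun x k => (k1 x).1 k)

/-- `Z = A × B`, `|A| = |B| ≥ 4` -/
structure Dc (Z A B : Subgroup G) : Prop where
  el : ∀ x ∈ Z, x * x = 1
  inf : A ⊓ B = ⊥
  sup : A ⊔ B = Z
  card : Nat.card A = Nat.card B
  four : 4 ≤ Nat.card A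

theorem S4.dc (h : S4 U A B p) : Dc (Zc U) A B := ⟨fun _ k => k.2.2, h.inf, h.sup, h.card, h.four⟩

theorem Dc.map {H : Type*} [Group H] (h : Dc Z A B) {f : G →* H} (i : Function.Injective f) : Dc (Z.map f) (A.map f) (B.map f) :=
  ⟨by rintro _ ⟨x, hx, rfl⟩; rw [← map_mul, h.el x hx, map_one], by rw [← map_inf _ _ f i, h.inf, Subgroup.map_bot], by rw [← Subgroup.map_sup, h.sup],
    by rw [card_map_of_injective i, card_map_of_injective i, h.card], by rw [card_map_of_injective i]; exact h.four⟩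

theorem Gd.map {H : Type*} [Group H] (h : Gd Z A B X) {f : G →* H} (i : Function.Injective f) :
    Gd (Z.map f) (A.map f) (B.map f) (f '' X) := by
  refine h.imp (fun k y => ?_) (Or.imp (fun k y => ?_) fun k y => ?_)
  · refine ⟨?_, fun ⟨a, b⟩ => ?_⟩
    · rintro ⟨x, hx, rfl⟩
      simpa only [Ne, map_eq_one_iff f i, mem_map_iff_mem i] using (k x).1 hx
    · obtain ⟨x, rfl⟩ : ∃ x, f x = y := b.elim (fun ⟨x, _, e⟩ => ⟨x, e⟩) fun ⟨x, _, e⟩ => ⟨x, e⟩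
      exact ⟨x, (k x).2 (by simpa only [Ne, map_eq_one_iff f i, mem_map_iff_mem i] using And.intro a b), rfl⟩
  all_goals
    refine ⟨?_, ?_⟩
    · rintro ⟨x, hx, rfl⟩
      simpa only [mem_map_iff_mem i] using (k x).1 hx
    · rintro ⟨⟨x, hx, rfl⟩, b⟩
      exact ⟨x, (k x).2 ⟨hx, fun j => b ⟨x, j, rfl⟩⟩, rfl⟩

theorem Dc.symm (d : Dc Z A B) : Dc Z B A := ⟨d.el, inf_comm A B ▸ d.inf, sup_comm A B ▸ d.sup, d.card.symm, d.card ▸ d.four⟩

theorem Dc.lA (d : Dc Z A B) : A ≤ Z := d.sup ▸ le_sup_left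

theorem Dc.one (d : Dc Z A B) (a : c ∈ A) (b : c ∈ B) : c = 1 := mem_bot.1 (d.inf ▸ mem_inf.2 ⟨a, b⟩)

theorem Dc.three (d : Dc Z A B) (c : G) : ∃ a ∈ A, a ≠ 1 ∧ a ≠ c := by
  by_contra! k
  have := Set.ncard_le_ncard (s := (A : Set G)) (t := {1, c}) fun a ha => (em (a = 1)).imp_right (k a ha)
  have := Set.ncard_insert_le (1 : G) {c}
  have : 4 ≤ (A : Set G).ncard := d.four
  rw [Set.ncard_singleton] at *
  omega

theorem el_comm (el : ∀ x ∈ Z, x * x = 1) {a b : G} (ha : a ∈ Z) (hb : b ∈ Z) : a * b = b * a := by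
  rw [← inv_eq_of_mul_eq_one_right (el _ (mul_mem ha hb)), mul_inv_rev, inv_eq_of_mul_eq_one_right (el a ha),
    inv_eq_of_mul_eq_one_right (el b hb)]

theorem Gd.ex (h : Gd Z A B X) (d : Dc Z A B) : ∃ c ∈ X, c ≠ 1 ∧ (c ∈ A ∨ c ∈ B) := by
  obtain ⟨a, ha, a1, -⟩ := d.three 1
  obtain ⟨b, hb, b1, -⟩ := d.symm.three 1
  rcases h with k | k | k
  · exact ⟨a, (k a).2 ⟨a1, .inl ha⟩, a1, .inl ha⟩
  · exact ⟨a, (k a).2 ⟨d.lA ha, fun j => a1 (d.one ha j)⟩, a1, .inl ha⟩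
  · exact ⟨b, (k b).2 ⟨d.symm.lA hb, fun j => b1 (d.one j hb)⟩, b1, .inr hb⟩

theorem tr_fin (d : Dc Z A' B') (cZ : c ∈ Z) (k : ∀ b ∈ B', b ≠ 1 → b * c ∈ B) : c ∈ B := by
  obtain ⟨a, ha, a1, -⟩ := d.symm.three 1
  obtain ⟨b, hb, b1, ba⟩ := d.symm.three a
  have i := mul_mem (k a ha a1) (k b hb b1)
  rw [el_comm d.el (d.symm.lA hb) cZ, mul_assoc, ← mul_assoc c, d.el c cZ, one_mul] at i
  exact (mul_mem_cancel_left i).1 (k _ (mul_mem ha hb) fun j => ba (mul_left_cancel (j.trans (d.el a (d.symm.lA ha)).symm)))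

theorem tr12 (d : Dc Z A B) (m : c ∈ A) (f : ∀ x ∈ Z, (x ∈ B' → x = 1) ↔ x * c ∈ A ∨ x * c ∈ B) : c ∈ B' := by
  obtain ⟨a, ha, a1, ac⟩ := d.three c
  obtain ⟨b, hb, b1, -⟩ := d.symm.three 1
  have cZ := d.lA m
  have k (a) (ha : a ∈ A) (a1 : a ≠ 1) : b * a * c ∈ B' := by
    refine by_contra fun i => ((f _ (mul_mem (mul_mem (d.symm.lA hb) (d.lA ha)) cZ)).1 fun j => (i j).elim).elim ?_ ?_ <;>
      rw [mul_assoc, d.el c cZ, mul_one]
    · exact fun j => b1 (d.one ((mul_mem_cancel_right ha).1 j) hb)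
    · exact fun j => a1 (d.one ha ((mul_mem_cancel_left hb).1 j))
  have i := k _ (mul_mem ha m) fun j => ac (mul_right_cancel (j.trans (d.el c cZ).symm))
  rw [mul_assoc, mul_assoc, d.el c cZ, mul_one] at i
  exact (mul_mem_cancel_left i).1 (k a ha a1)

theorem tr11 (d : Dc Z A B) (d' : Dc Z A' B') (m : c ∈ A) (m' : c ∈ A') (c1 : c ≠ 1)
    (f : ∀ x ∈ Z, x ∈ A' ∨ x ∈ B' ↔ x * c ∈ A ∨ x * c ∈ B) : False := by
  refine c1 (d.one m (tr_fin d' (d.lA m) fun b hb b1 => ((f b (d'.symm.lA hb)).1 (.inr hb)).resolve_left fun i => b1 ?_))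
  have bA := (mul_mem_cancel_right m).1 i
  have j := (f _ (d.lA i)).2 (.inl (mul_mem i m))
  exact j.elim (fun j => d'.one ((mul_mem_cancel_right m').1 j) hb) fun j => (c1 (d'.one m' ((mul_mem_cancel_left hb).1 j))).elim

/-- Let `q = |A| = |A'|`, `S = X ∪ {1}`, `S' = X' ∪ {1}`, so `S = c S'`; say `c ∈ A`.  `|A ∪ B| = 2q - 1 ≠ q² - q + 1`.
If `S = A ∪ B`, `S' = A' ∪ B'`: `c ∈ S'`, say `c ∈ A'`; the group `A' = c A'` lies in `A ∪ B`, so `A' = A`, and `c b ∈ B` for `1 ≠ b ∈ B'`.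
If `S = Z \ B^#` then `S' = Z \ B'^#` (say) and again `c b ∈ B` for `1 ≠ b ∈ B'`.  With `b₁ ≠ b₂` in `B'^#`:
`c = (c b₁) (c b₂) (c b₁ b₂) ∈ B`, a contradiction. -/
theorem translate (d : Dc Z A B) (d' : Dc Z A' B') (h : Gd Z A B X) (h' : Gd Z A' B' X') (hc : c ∈ X) (m : c ∈ A ∨ c ∈ B)
    (e : ∀ x ∈ Z, (x = 1 ∨ x ∈ X') ↔ (x * c = 1 ∨ x * c ∈ X)) : False := by
  have cv {A B : Subgroup G} {X : Set G} (d : Dc Z A B) (h : Gd Z A B X) : (∀ x ∈ Z, (x = 1 ∨ x ∈ X) ↔ x ∈ A ∨ x ∈ B) ∨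
      ∃ A B, Dc Z A B ∧ ∀ x ∈ Z, (x = 1 ∨ x ∈ X) ↔ (x ∈ B → x = 1) := by
    rcases h with k | k | k
    · refine .inl fun x _ => ?_
      have : x = 1 → x ∈ A := fun i => i ▸ one_mem A
      rw [k]; tauto
    · exact .inr ⟨A, B, d, fun x _ => by rw [k]; tauto⟩
    · exact .inr ⟨B, A, d.symm, fun x _ => by rw [k]; tauto⟩
  have cZ : c ∈ Z := m.elim (d.lA ·) (d.symm.lA ·)
  have c1 : c ≠ 1 := by
    rintro rfl
    rcases h with k | k | k
    exacts [((k 1).1 hc).1 rfl, ((k 1).1 hc).2 (one_mem _), ((k 1).1 hc).2 (one_mem _)]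
  have e' (x) (hx : x ∈ Z) := (e _ (mul_mem hx cZ)).symm
  simp only [mul_assoc, d.el c cZ, mul_one] at e'
  have hc' := (e c cZ).2 (.inl (d.el c cZ))
  rcases cv d h with k | ⟨A, B, d, k⟩ <;> rcases cv d' h' with k' | ⟨A', B', d', k'⟩
  · have f (x) (hx : x ∈ Z) := ((k' x hx).symm.trans (e x hx)).trans (k _ (mul_mem hx cZ))
    rcases m with m | m <;> rcases (k' c cZ).1 hc' with m' | m'
    · exact tr11 d d' m m' c1 f
    · exact tr11 d d'.symm m m' c1 fun x hx => or_comm.trans (f x hx)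
    · exact tr11 d.symm d' m m' c1 fun x hx => (f x hx).trans or_comm
    · exact tr11 d.symm d'.symm m m' c1 fun x hx => (or_comm.trans (f x hx)).trans or_comm
  · have f (x) (hx : x ∈ Z) := ((k' x hx).symm.trans (e x hx)).trans (k _ (mul_mem hx cZ))
    exact c1 ((k' c cZ).1 hc' (m.elim (fun m => tr12 d m f) fun m => tr12 d.symm m fun x hx => (f x hx).trans or_comm))
  · have f (x) (hx : x ∈ Z) := ((k x hx).symm.trans (e' x hx)).trans (k' _ (mul_mem hx cZ))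
    exact c1 ((k c cZ).1 (.inr hc) (((k' c cZ).1 hc').elim (fun m => tr12 d' m f) fun m => tr12 d'.symm m fun x hx => (f x hx).trans or_comm))
  · refine c1 ((k c cZ).1 (.inr hc) (tr_fin d' cZ fun b hb b1 => by_contra fun i => b1 ?_))
    have bZ := d'.symm.lA hb
    exact (k' b bZ).1 ((e b bZ).2 ((k _ (mul_mem bZ cZ)).2 fun j => (i j).elim)) hb

/-- with `N = α + 1` on the elementary abelian group `Z`: `ker N² = ker N` and `N⁴ = 0` give `N = 0` -/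
theorem fix_of_sq (el : ∀ x ∈ Z, x * x = 1) {α : MulAut G} (n : ∀ x ∈ Z, α x ∈ Z) (h4 : α ^ 4 = 1)
    (k : ∀ x ∈ Z, α (α x) = x → α x = x) : ∀ x ∈ Z, α x = x := fun x hx => by
  have x1 := n x hx
  have x2 := n _ x1
  have e4 : α (α (α (α x))) = x := by simpa [pow_succ] using DFunLike.congr_fun h4 x
  have a := k _ (mul_mem hx x2) (by rw [map_mul, map_mul, e4, el_comm el hx x2])
  rw [map_mul] at a
  have b := k _ (mul_mem hx x1) (by
    rw [map_mul, map_mul, eq_inv_mul_of_mul_eq a, inv_eq_of_mul_eq_one_right (el _ x1), ← mul_assoc (α x), el_comm el (mul_mem x1 hx) x2,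
      ← mul_assoc, el _ x2, one_mul, el_comm el x1 hx])
  rw [map_mul, el_comm el hx x1] at b
  exact k x hx (mul_left_cancel b)

/-- the conjugates of `L` normalised by `T` -/
def Nn (L T : Subgroup G) : Set (Subgroup G) := {M | (∃ g : G, M = g ⋆ L) ∧ T ≤ 𝐍(M)}

theorem Fm.nn_tr (h : Fm L T) (hM : M ∈ Nn L T) : ∃ n ∈ 𝐍(T), M = n ⋆ L := by
  obtain ⟨⟨g, rfl⟩, k⟩ := hM
  obtain ⟨x, a, b⟩ := h.exists_conj ⟨h.hy, std_conj h.std g, h.syl, k⟩
  exact ⟨x, norm_of_conj_eq b, a.symm⟩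

/-- `L` has `|G : N(L)|` conjugates, an odd number; `even_fix'` -/
theorem Fm.nn_odd (h : Fm L T) : Odd (Nn L T).ncard := by
  let _ := cjAct G
  have e : MulAction.stabilizer G L = 𝐍(L) := Subgroup.ext fun g => Transfer.conj_eq_self_iff
  have k := even_fix' h.syl.pgroup (D := {M | ∃ g : G, M = g ⋆ L}) fun t _ M ⟨g, i⟩ => ⟨t * g, by rw [i, Transfer.conj_conj]⟩
  refine Nat.not_even_iff_odd.1 fun i => h.syl.not_dvd' ?_
  have j : Even (MulAction.orbit G L).ncard := by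
    convert k.2 i
    exact Set.ext fun M => exists_congr fun g => eq_comm
  rw [← MulAction.index_stabilizer, e] at j
  rw [relIndex_top_right]
  exact (even_iff_two_dvd.1 j).trans (index_dvd_of_le h.nT)

end Cfsg.Lib.QJ
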