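import Cfsg.Agent.Lib.QJ.Def

/-! # QJ: shortcuts for the model proofs (`Mn`, `Mf`) -/

set_option autoImplicit false
set_option linter.unusedSectionVars false

namespace Cfsg.Lib.QJ

open Subgroup Cfsg.Lib.BG Cfsg.Lib.Comp Cfsg.Lib.QS
open scoped Cfsg.Lib.Transfer commutatorElement

/-- `Mn` holds for some model of `Y` -/
def MnE (Y : Type*) [Group Y] : Prop := ∃ (X : Type) (_ : Group X), Nonempty (X ≃* Y) ∧ Mn X

/-- `Mf` holds for some model of `Y` -/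
def MfE (Y : Type*) [Group Y] : Prop := ∃ (X : Type) (_ : Group X), Nonempty (X ≃* Y) ∧ Mf X

theorem MnE.congr {Y Y' : Type*} [Group Y] [Group Y'] (h : MnE Y) (e : Y ≃* Y') : MnE Y' :=
  let ⟨X, i, ⟨f⟩, k⟩ := h; ⟨X, i, ⟨f.trans e⟩, k⟩

theorem MfE.congr {Y Y' : Type*} [Group Y] [Group Y'] (h : MfE Y) (e : Y ≃* Y') : MfE Y' :=
  let ⟨X, i, ⟨f⟩, k⟩ := h; ⟨X, i, ⟨f.trans e⟩, k⟩

theorem Mn.e {X : Type} [Group X] (h : Mn X) : MnE X := ⟨X, _, ⟨.refl X⟩, h⟩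

theorem Mf.e {X : Type} [Group X] (h : Mf X) : MfE X := ⟨X, _, ⟨.refl X⟩, h⟩

variable {Y : Type*} [Group Y] [Finite Y] {U V S : Subgroup Y} {a b c t x y h : Y} {p : ℕ}

theorem Tc.aut (k : Tc c) (α : MulAut Y) : Tc (α c) :=
  let ⟨_, a, b⟩ := k; ⟨_, syl_mp α a, cent1_mp α c ▸ map_mono b⟩

theorem Tc.conj (k : Tc a) (e : IsConj a b) : Tc b := by
  obtain ⟨g, rfl⟩ := isConj_iff.1 e
  exact k.aut (MulAut.conj g)

theorem tc_one : Tc (1 : Y) :=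
  let ⟨S, h⟩ := Syl.exists 2 (⊤ : Subgroup Y); ⟨S, h, fun x _ => mem_cent1.2 (by rw [mul_one, one_mul])⟩

theorem tc_of (hU : Syl 2 U ⊤) (hc : c ∈ 𝐂(U)) : Tc c := ⟨U, hU, le_cent1_iff.2 hc⟩

/-- Sylow's theorem; `c` lies in each Sylow 2-subgroup that it centralises -/
theorem Tc.exists_conj (hU : Syl 2 U ⊤) (k : Tc c) (h2 : c * c = 1) : ∃ g : Y, g * c * g⁻¹ ∈ Zc U := by
  obtain ⟨S, hS, l⟩ := k
  obtain ⟨g, -, rfl⟩ := Syl.exists_conj_eq hS hU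
  have m : c ∈ S := hS.ge_of_norm_p (N := zpowers c) le_top (IsPGroup.of_card_dvd_pow (n := 1) (by
    rw [Nat.card_zpowers]; exact orderOf_dvd_of_pow_eq_one (by rwa [pow_one, sq])))
    (norm_of_cent (cent_zpowers c ▸ l)) (mem_zpowers c)
  refine ⟨g, Transfer.conj_mem_conj.2 m, le_cent1_iff.1 (conj_cent1 g c ▸ Transfer.conj_mono g l), ?_⟩
  rw [conj_mul, h2, mul_one, mul_inv_cancel]

/-- with `T1`, the 2-central involutions are conjugate -/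
theorem T1.isConj (hU : Syl 2 U ⊤) (k : T1 U) (ha : Tc a) (hb : Tc b) (oa : orderOf a = 2) (ob : orderOf b = 2) :
    IsConj a b := by
  have q : ∀ {c : Y}, orderOf c = 2 → c * c = 1 := fun o => by rw [← sq, ← o, pow_orderOf_eq_one]
  have n : ∀ {c : Y} (g : Y), orderOf c = 2 → g * c * g⁻¹ ≠ 1 := fun g o e => by
    rw [conj_eq_one_iff.1 e, orderOf_one] at o
    exact absurd o (by decide)
  obtain ⟨g, p⟩ := ha.exists_conj hU (q oa)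
  obtain ⟨g', p'⟩ := hb.exists_conj hU (q ob)
  obtain ⟨w, -, e⟩ := k _ ⟨p, n g oa⟩ _ ⟨p', n g' ob⟩
  exact ((isConj_iff.2 ⟨g, rfl⟩).trans (isConj_iff.2 ⟨w, e⟩)).trans (isConj_iff.2 ⟨g', rfl⟩).symm

theorem exists_inv2 (hV : IsPGroup 2 V) (n : V ≠ ⊥) : ∃ z ∈ V, z ≠ 1 ∧ z * z = 1 := by
  obtain ⟨z, o⟩ := exists_prime_orderOf_dvd_card' 2 (pgroup_dvd_card hV n)
  rw [← orderOf_coe] at o
  exact ⟨z, z.2, fun e => by rw [e, orderOf_one] at o; exact absurd o (by decide), by rw [← sq, ← o, pow_orderOf_eq_one]⟩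

/-- take an involution of `Z(U)` (`U ≠ ⊥` as `t` exists) -/
theorem tc_of_one (k : ∀ a b : Y, orderOf a = 2 → orderOf b = 2 → IsConj a b) (ht : orderOf t = 2) : Tc t := by
  obtain ⟨U, hU⟩ := Syl.exists 2 (⊤ : Subgroup Y)
  obtain ⟨z, m, z1, z2⟩ := exists_inv2 (hU.pgroup.to_le (inf_le_left : 𝐙(U) ≤ U)) (center_ne_bot_of_nil hU.nil
    (hU.ne_bot' (by rw [card_top, ← ht]; exact orderOf_dvd_natCard t)))
  exact (tc_of hU m.2).conj (k _ _ (orderOf_eq_prime ((sq z).trans z2) z1) ht)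

/-- Burnside: `N(U)` controls the fusion in `C(U)` (`U`, `g ⋆ U` are Sylow in `C(b)`) -/
theorem t1_of_conj (hU : Syl 2 U ⊤) (k : ∀ a ∈ Zc U, ∀ b ∈ Zc U, a ≠ 1 → b ≠ 1 → IsConj a b) : T1 U := fun a ha b hb => by
  obtain ⟨g, rfl⟩ := isConj_iff.1 (k a ha.1 b hb.1 ha.2 hb.2)
  obtain ⟨w, p, e⟩ := Syl.exists_conj_eq ((hU.conj_top g).of_le (conj_cent1 g a ▸ Transfer.conj_mono g (le_cent1_iff.2 ha.1.2.1)) le_top)
    (hU.of_le (le_cent1_iff.2 hb.1.2.1) le_top)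
  refine ⟨w * g, norm_of_conj_eq (by rw [← Transfer.conj_conj, ← e]), ?_⟩
  rw [show w * g * a * (w * g)⁻¹ = w * (g * a * g⁻¹) * w⁻¹ by group, mem_cent1.1 p, mul_inv_cancel_right]

/-- `U' ∩ Zc U ≠ ⊥` is `N(U)`-invariant -/
theorem T1.le_der (hU : IsPGroup 2 U) (k : T1 U) (n : ¬ U ≤ 𝐂(U)) : Zc U ≤ ⁅U, U⁆ := fun c hc => by
  obtain ⟨z, m, z1, z2⟩ := exists_inv2 (hU.to_le (inf_le_left.trans (der_le U) : ⁅U, U⁆ ⊓ 𝐂(U) ≤ U))
    (nil_meet_center (pgroup_nil hU) (der_le U) (norm_der (le_norm U)) fun e => n (comm_eq_bot_iff.1 e))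
  by_cases e : c = 1
  · exact e ▸ one_mem _
  obtain ⟨g, p, rfl⟩ := k z ⟨⟨der_le U m.1, m.2, z2⟩, z1⟩ c ⟨hc, e⟩
  exact conj_mem_of_norm (norm_der le_rfl p) m.1

/-- `U / ker f` is cyclic, hence `U' = [ker f, U]` -/
theorem b3_of_cy (hU : IsPGroup 2 U) (k : QT.Cy 2 (Out Y)) (hZ : Zc U ≤ ⁅U, U⁆) (f : U →* Out Y) :
    Zc U ≤ ⁅f.ker.map U.subtype, U⁆ := by
  have := k f.range (hU.of_surjective f.rangeRestrict f.rangeRestrict_surjective)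
  have l : ⁅f.ker, (⊤ : Subgroup U)⁆ ≤ f.rangeRestrict.ker := by rw [MonoidHom.ker_rangeRestrict]; exact commutator_le_left _ _
  have c := (QuotientGroup.lift _ f.rangeRestrict l).isMulCommutative_of_isCyclic_of_ker_le_center fun x hx => by
    obtain ⟨x, rfl⟩ := QuotientGroup.mk_surjective x
    refine mem_center_iff.2 fun y => ?_
    obtain ⟨y, rfl⟩ := QuotientGroup.mk_surjective y
    have m : x ∈ f.ker := MonoidHom.ker_rangeRestrict f ▸ (show x ∈ f.rangeRestrict.ker from hx)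
    rw [eq_comm, ← commutatorElement_eq_one_iff_mul_comm, ← QuotientGroup.mk'_apply, ← QuotientGroup.mk'_apply, ← map_commutatorElement]
    exact (QuotientGroup.eq_one_iff _).2 (commutator_mem_commutator m (mem_top y))
  refine hZ.trans (Subgroup.commutator_le.2 fun a ha b hb => ?_)
  have m : ⁅(⟨a, ha⟩ : U), (⟨b, hb⟩ : U)⁆ ∈ ⁅f.ker, (⊤ : Subgroup U)⁆ := (QuotientGroup.eq_one_iff _).1 (by
    rw [← QuotientGroup.mk'_apply, map_commutatorElement]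
    exact commutatorElement_eq_one_iff_mul_comm.2 (c.is_comm.comm _ _))
  have := mem_map_of_mem U.subtype m
  rwa [map_commutator, ← MonoidHom.range_eq_map, range_subtype] at this

/-- a 2-subgroup has order at most two -/
theorem cy_of_card (k : ¬ 4 ∣ Nat.card (Out Y)) : QT.Cy 2 (Out Y) := fun P hP => by
  obtain ⟨n, e⟩ := IsPGroup.iff_card.1 hP
  refine isCyclic_of_card_dvd_prime (p := 2) ?_
  rcases n with _ | _ | n
  · rw [e]; decide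
  · rw [e]; decide
  · exact absurd ((Dvd.intro_left (2 ^ n) (by rw [e]; ring)).trans (card_subgroup_dvd_card P)) k

theorem cy_of_cyclic (k : IsCyclic (Out Y)) : QT.Cy 2 (Out Y) := fun _ _ => inferInstance

/-- `QS.z3_of_card` -/
theorem o1_of_card (k : ¬ 4 ∣ Nat.card (Out Y)) (U : Subgroup Y) : O1 U := ⟨cy_of_card k, fun _ a _ _ => z3_of_card k a⟩

theorem LieU_c1 (k : LieU U) (α : MulAut Y) (h2 : α * α = 1) (e : ∀ x ∈ U, α x = x) : α ∈ Inn Y :=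
  let ⟨u, _, r⟩ := k.z1 α 1 (by rw [show 4 = 2 * 2 from rfl, pow_mul, sq α, h2, one_pow]) (one_mem _) (one_mem _) (one_mul 1)
    fun x hx => .inl (e x hx)
  ⟨u, r.symm⟩

theorem LieU_o1 (k : LieU U) (r : QT.Cy 2 (Out Y)) : O1 U := ⟨r, fun α a n f => k.z3 α a n fun c h1 h2 h3 => f c ⟨h1, h2, h3⟩⟩

theorem c1_of_odd (k : Odd (Nat.card (Out Y))) (α : MulAut Y) (h2 : α * α = 1) : α ∈ Inn Y := by
  rw [← QuotientGroup.eq_one_iff, ← orderOf_eq_one_iff]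
  exact Nat.eq_one_of_dvd_coprimes (Nat.coprime_two_left.2 k) (orderOf_dvd_of_pow_eq_one (by
    rw [sq, ← QuotientGroup.mk_mul, h2, QuotientGroup.mk_one])) (orderOf_dvd_natCard _)

theorem p1_of (hU : Syl 2 U ⊤) (c1 : ∀ α : MulAut Y, α * α = 1 → (∀ x ∈ U, α x = x) → α ∈ Inn Y) (k : T1 U)
    (n : ¬ U ≤ 𝐂(U)) (r : QT.Cy 2 (Out Y)) : P1 U :=
  ⟨hU, c1, b3_of_cy hU.pgroup r (k.le_der hU.pgroup n), .inl k⟩

/-- transport along `MulAut.conj g` -/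
theorem P2.conj (k : P2 a) (e : IsConj a b) : P2 b := by
  obtain ⟨g, rfl⟩ := isConj_iff.1 e
  obtain ⟨x, hx, x2, x1, c, i, k⟩ := k
  have m : ∀ y : 𝐂[a], ((MulAut.conj g).toMonoidHom.comp 𝐂[a].subtype) y ∈ 𝐂[g * a * g⁻¹] := fun y =>
    conj_cent1 g a ▸ Transfer.conj_mem_conj.2 y.2
  refine ⟨g * x * g⁻¹, m ⟨x, hx⟩, by rw [conj_mul, x2, mul_one, mul_inv_cancel], mt conj_eq_one_iff.1 x1, c.aut (MulAut.conj g), ?_,
    fun F => k (F.comp (MonoidHom.codRestrict _ _ m))⟩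
  rw [conj_mul]
  exact (MulAut.conj g).toMonoidHom.map_isConj i

/-- transport along `MulAut.conj g` -/
theorem PV.conj (k : PV p a V h S) (e : IsConj a b) : ∃ V h S, PV p b V h S := by
  obtain ⟨g, rfl⟩ := isConj_iff.1 e
  let φ := MulAut.conj g
  have c : 𝐂[a].map φ.toMonoidHom = 𝐂[φ a] := cent1_mp φ a
  have c' : ∀ {y}, φ y ∈ 𝐂[φ a] ↔ y ∈ 𝐂[a] := fun {y} => c ▸ mem_mp φ
  refine ⟨V.map φ.toMonoidHom, φ h, S.map φ.toMonoidHom, (show PV p (φ a) _ _ _ from ⟨mt Transfer.conj_eq_bot_iff.1 k.ne, c ▸ map_mono k.le, ?_, ?_,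
    c ▸ map_norm _ k.nV, c'.2 k.hc, by rw [← map_pow, k.hp, map_one], ?_, k.pS.map _, ?_, fun y hy s y2 => ?_⟩)⟩
  · rintro _ ⟨v, hv, rfl⟩
    rw [← map_mul, k.el v hv, map_one]
  · rintro _ ⟨v, hv, rfl⟩
    exact ⟨(k.tc v hv).1.aut φ, map_mul φ a v ▸ φ.toMonoidHom.map_isConj (k.tc v hv).2⟩
  · rintro _ ⟨v, hv, rfl⟩ m
    rw [k.fpf v hv ((mem_mp φ).1 (cent1_mp φ h ▸ m)), map_one]
  · refine (map_mono k.gS).trans ?_
    rw [Pg, MonoidHom.map_closure]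
    refine closure_mono ?_
    rintro _ ⟨v, hv, rfl⟩
    exact ⟨c'.2 hv.1, by rw [← map_pow, hv.2, map_one]⟩
  · obtain ⟨y, rfl⟩ := φ.surjective y
    obtain ⟨v, hv, m⟩ := k.cS y (c'.1 hy) ((cent_mp φ).1 s) (φ.injective (by rw [map_mul, y2, map_one]))
    exact ⟨φ v, (mem_mp φ).2 hv, by rw [← map_mul, ← c]; exact (cent_mp φ).2 m⟩

/-- `F y = conj u`, so `F (y ^ n) = conj (u ^ n)`, and `(u ^ n) ^ 2` is central -/
theorem p2_of_pow (hZ : center Y = ⊥) {n : ℕ} (hy : y ∈ 𝐂[t]) (i : ∀ f : 𝐂[t] →* Out Y, f ⟨y, hy⟩ = 1)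
    (h2 : y ^ n * y ^ n = 1) (h1 : y ^ n ≠ 1) (e : IsConj t (t * y ^ n)) (k : ∀ u : Y, u ^ n * u ^ n = 1 → Tc (u ^ n)) :
    P2 t := by
  refine ⟨y ^ n, pow_mem hy n, h2, h1, k y h2, e, fun F => ?_⟩
  obtain ⟨u, r⟩ := (QuotientGroup.eq_one_iff _).1 (i ((QuotientGroup.mk' (Inn Y)).comp F))
  have q : F ⟨y ^ n, pow_mem hy n⟩ = MulAut.conj (u ^ n) := by rw [map_pow, r, ← map_pow]; rfl
  have z : u ^ n * u ^ n = 1 := hZ.le (mem_center_iff.2 fun w => by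
    have : MulAut.conj (u ^ n * u ^ n) = 1 := by rw [map_mul, ← q, ← map_mul, ← map_one F]; exact congrArg F (Subtype.ext h2)
    exact (mul_inv_eq_iff_eq_mul.1 (DFunLike.congr_fun this w)).symm)
  exact ⟨u ^ n, z, k u z, q⟩

/-- the hypothesis `i` of `p2_of_pow` if `Out Y` is abelian -/
theorem out_of_der {H : Subgroup Y} (k : ∀ a b : Out Y, a * b = b * a) (hy : y ∈ H) (d : y ∈ ⁅H, H⁆) (f : H →* Out Y) :
    f ⟨y, hy⟩ = 1 := by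
  obtain ⟨z, m, rfl⟩ := (Subgroup.commutator_le.2 fun a ha b hb => ⟨⁅(⟨a, ha⟩ : H), (⟨b, hb⟩ : H)⁆, show f _ = 1 by
    rw [map_commutatorElement]; exact commutatorElement_eq_one_iff_mul_comm.2 (k _ _), rfl⟩ : ⁅H, H⁆ ≤ f.ker.map H.subtype) d
  exact m

/-- the hypothesis `i` of `p2_of_pow` if the order of `y` is prime to `|Out Y|` -/
theorem out_of_cop {H : Subgroup Y} (hy : y ∈ H) (k : (orderOf y).Coprime (Nat.card (Out Y))) (f : H →* Out Y) :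
    f ⟨y, hy⟩ = 1 := orderOf_eq_one_iff.1
  (Nat.eq_one_of_dvd_coprimes k ((orderOf_map_dvd f _).trans (orderOf_mk y hy).dvd) (orderOf_dvd_natCard _))

/-- `x⁻¹ * (h * x * h⁻¹) = (x⁻¹ * h * x) * h⁻¹` -/
theorem cm_mem_Pg {X : Subgroup Y} (hx : x ∈ X) (hh : h ∈ X) (e : h ^ p = 1) : x⁻¹ * (h * x * h⁻¹) ∈ Pg p X := by
  rw [show x⁻¹ * (h * x * h⁻¹) = x⁻¹ * h * x⁻¹⁻¹ * h⁻¹ by group]
  exact mul_mem (subset_closure ⟨mul_mem (mul_mem (inv_mem hx) hh) (inv_mem (inv_mem hx)), by rw [conj_pow, e, mul_one, mul_inv_cancel]⟩)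
    (inv_mem (subset_closure ⟨hh, e⟩))

/-- two classes (or one class) of involutions, `4 ∤ |Out Y|` -/
theorem mn_two (hU : Syl 2 U ⊤) (c1 : ∀ α : MulAut Y, α * α = 1 → (∀ x ∈ U, α x = x) → α ∈ Inn Y) (k : T1 U)
    (n : ¬ U ≤ 𝐂(U)) (r : ¬ 4 ∣ Nat.card (Out Y)) (i : In Y) : Mn Y :=
  ⟨U, p1_of hU c1 k n (cy_of_card r), i, .inl (o1_of_card r U)⟩

/-- one class of involutions, `4 ∤ |Out Y|` -/
theorem mn_one (hU : Syl 2 U ⊤) (c1 : ∀ α : MulAut Y, α * α = 1 → (∀ x ∈ U, α x = x) → α ∈ Inn Y)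
    (k : ∀ a b : Y, orderOf a = 2 → orderOf b = 2 → IsConj a b) (n : ¬ U ≤ 𝐂(U)) (r : ¬ 4 ∣ Nat.card (Out Y)) : Mn Y :=
  mn_two hU c1 (t1_of_conj hU fun _ ha _ hb a1 b1 => k _ _ (orderOf_eq_prime ((sq _).trans ha.2.2) a1)
    (orderOf_eq_prime ((sq _).trans hb.2.2) b1)) n r (.inl fun _ ht => .inl (tc_of_one k ht))

end Cfsg.Lib.QJ
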